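import Mathlib
import Cfsg.Agent.H25.UGDefs
import Cfsg.Agent.H31.HermCount

/-!
Project UG, piece SYL1: a `p`-group of isometries of a unitary `7`-space stabilises a maximal
totally isotropic subspace `W` and a vector of norm one modulo `W`.
-/

set_option autoImplicit false

namespace Cfsg.Agent.H59.UGSyl1

open Cfsg Module Cfsg.Agent.H31
open Cfsg.Agent.H53.Uw (St)

universe u

variable {E V : Type u} [Field E] [AddCommGroup V] [Module E V] {σ : E →+* E}
  {B : V →ₛₗ[σ] V →ₗ[E] E}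

theorem perp_inv {S : Subgroup (V ≃ₗ[E] V)} (hS : S ≤ isom B) {W : Submodule E V}
    (hinv : ∀ g ∈ S, ∀ w ∈ W, g w ∈ W) {g : V ≃ₗ[E] V} (hg : g ∈ S) {x : V}
    (hx : x ∈ perp B W) : g x ∈ perp B W := by
  intro w hw
  have h1 : B (g (g⁻¹ w)) (g x) = B (g⁻¹ w) x := hS hg _ _
  have h2 : g (g⁻¹ w) = w := by simp
  rw [h2] at h1
  change B w (g x) = 0
  rw [h1]
  exact hx _ (hinv _ (S.inv_mem hg) w hw)

theorem norm_congr (h : IsHerm B) {W : Submodule E V} (hW : TotIso B W) {x y : V}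
    (hx : x ∈ perp B W) (hxy : x - y ∈ W) : B y y = B x x := by
  obtain ⟨w, hw⟩ : ∃ w, w = x - y := ⟨_, rfl⟩
  have e : y = x - w := by rw [hw]; abel
  rw [← hw] at hxy
  have h1 : B w x = 0 := hx _ hxy
  have h2 : B x w = 0 := h.flip_zero h1
  have h3 : B w w = 0 := hW _ hxy _ hxy
  rw [e, sub_left, map_sub, map_sub, h1, h2, h3]
  simp

theorem key [FiniteDimensional E V] (h : IsHerm B) {S : Subgroup (V ≃ₗ[E] V)} (hS : S ≤ isom B)
    {W : Submodule E V} (hW : TotIso B W) (hinv : ∀ g ∈ S, ∀ w ∈ W, g w ∈ W) :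
    ∃ C : Submodule E V, NondegOn B C ∧ finrank E C + 2 * finrank E W = finrank E V ∧
      C ≤ perp B W ∧ (∀ x ∈ C, x ∈ W → x = 0) ∧
      ∀ a : E, ∃ _ : MulAction S {x : V // x ∈ C ∧ B x x = a},
        (∀ (g : S) (x : {x : V // x ∈ C ∧ B x x = a}), g.1 x.1 - (g • x).1 ∈ W) := by
  obtain ⟨C0, hC0⟩ := W.exists_isCompl
  have hWU : W ≤ perp B W := totIso_iff_le_perp.mp hW
  have hdis : ∀ x ∈ C0, x ∈ W → x = 0 := fun x h1 h2 =>
    (Submodule.disjoint_def.mp hC0.disjoint) x h2 h1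
  have hdec : ∀ x : V, ∃ c ∈ C0, x - c ∈ W := by
    intro x
    have : x ∈ W ⊔ C0 := by rw [hC0.sup_eq_top]; trivial
    obtain ⟨w, hw, c, hc, rfl⟩ := Submodule.mem_sup.mp this
    exact ⟨c, hc, by simpa using hw⟩
  choose π hπC hπW using hdec
  have huniq : ∀ x, ∀ c ∈ C0, x - c ∈ W → π x = c := by
    intro x c hc hx
    have h1 : π x - c ∈ W := by
      have := W.sub_mem hx (hπW x)
      have e : x - c - (x - π x) = π x - c := by abel
      rwa [e] at this
    exact sub_eq_zero.mp (hdis _ (C0.sub_mem (hπC x) hc) h1)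
  have hπU : ∀ x ∈ perp B W, π x ∈ perp B W := by
    intro x hx
    have := (perp B W).sub_mem hx (hWU (hπW x))
    simpa using this
  have hsup : W ⊔ (C0 ⊓ perp B W) = perp B W := by
    apply le_antisymm (sup_le hWU inf_le_right)
    intro x hx
    have e : x = (x - π x) + π x := by abel
    rw [e]
    exact Submodule.add_mem_sup (hπW x) ⟨hπC x, hπU x hx⟩
  refine ⟨C0 ⊓ perp B W, ?_, ?_, inf_le_right, fun x hx => hdis x hx.1, ?_⟩
  · intro x hx hx'
    apply hdis x hx.1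
    rw [← h.perp_perp W]
    intro y hy
    have e : y = (y - π y) + π y := by abel
    change B y x = 0
    rw [e, add_left, hx.2 _ (hπW y), h.flip_zero (hx' _ ⟨hπC y, hπU y hy⟩), add_zero]
  · have h1 := Submodule.finrank_sup_add_finrank_inf_eq W (C0 ⊓ perp B W)
    have h2 : W ⊓ (C0 ⊓ perp B W) = ⊥ := by
      rw [eq_bot_iff]
      intro x hx
      exact (Submodule.mem_bot E).mpr (hdis x hx.2.1 hx.1)
    rw [hsup, h2, finrank_bot] at h1
    have h3 := h.finrank_add_finrank_perp W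
    omega
  · intro a
    let sm : S → {x : V // x ∈ C0 ⊓ perp B W ∧ B x x = a} →
        {x : V // x ∈ C0 ⊓ perp B W ∧ B x x = a} := fun g x =>
      ⟨π (g.1 x.1), ⟨hπC _, hπU _ (perp_inv hS hinv g.2 x.2.1.2)⟩, by
        rw [norm_congr h hW (perp_inv hS hinv g.2 x.2.1.2) (hπW _), hS g.2, x.2.2]⟩
    refine ⟨{ smul := sm, one_smul := ?_, mul_smul := ?_ }, fun g x => hπW _⟩
    · intro g k x
      apply Subtype.ext
      change π ((g.1 * k.1) x.1) = π (g.1 (π (k.1 x.1)))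
      apply huniq _ _ (hπC _)
      have h1 := hinv _ g.2 _ (hπW (k.1 x.1))
      have h2 := hπW (g.1 (π (k.1 x.1)))
      have := W.add_mem h1 h2
      rw [map_sub] at this
      have e : g.1 (k.1 x.1) - g.1 (π (k.1 x.1)) + (g.1 (π (k.1 x.1)) - π (g.1 (π (k.1 x.1))))
          = g.1 (k.1 x.1) - π (g.1 (π (k.1 x.1))) := by abel
      rw [e] at this
      exact this
    · intro x
      apply Subtype.ext
      change π x.1 = x.1
      exact huniq _ _ x.2.1.1 (by simp)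

theorem dvd_cI {q n : ℕ} (hq : 1 ≤ q) (hn : 2 ≤ n) : q ∣ cI q n + 1 := by
  obtain ⟨m, rfl⟩ := Nat.exists_eq_add_of_le hn
  have h := cI_int hq (2 + m)
  have hq0 : (q : ℤ) ≠ 0 := by omega
  have h2 : ((cI q (2 + m) + 1 : ℕ) : ℤ) =
      q * ((q : ℤ) ^ (2 + 2 * m) + (q - 1) * (-(q : ℤ)) ^ m) := by
    apply mul_left_cancel₀ hq0
    push_cast
    rw [h]
    ring
  exact Int.natCast_dvd_natCast.mp ⟨_, h2⟩

theorem step [Fintype E] [Finite V] {q : ℕ} (hs : St B q) {S : Subgroup (V ≃ₗ[E] V)}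
    (hS : S ≤ isom B) (hp : IsPGroup (ringChar E) S) {W : Submodule E V} (hW : TotIso B W)
    (hinv : ∀ g ∈ S, ∀ w ∈ W, g w ∈ W) (hd : 2 * finrank E W + 2 ≤ finrank E V) :
    ∃ W' : Submodule E V, TotIso B W' ∧ finrank E W' = finrank E W + 1 ∧
      ∀ g ∈ S, ∀ w ∈ W', g w ∈ W' := by
  have : Module.Finite E V := Module.Finite.of_finite
  obtain ⟨C, hC, hdim, hCU, hdis, hact⟩ := key hs.herm hS hW hinv
  obtain ⟨inst, hsm⟩ := hact 0
  obtain ⟨k, hk, hpr, hqk⟩ := exists_pow_char hs.card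
  have : Fact (ringChar E).Prime := ⟨hpr⟩
  have hq := two_le_of_card_sq hs.card
  have hcard := hs.herm.card_isotropic_on hs.card hs.pow hC
  have hdvd : ringChar E ∣ Nat.card {x : V // x ∈ C ∧ B x x = 0} := by
    rw [hcard]
    refine Dvd.dvd.trans ?_ (dvd_cI (by omega) (by omega))
    rw [hqk]
    exact dvd_pow_self _ hk.ne'
  let z : {x : V // x ∈ C ∧ B x x = 0} := ⟨0, C.zero_mem, by simp⟩
  have hz : z ∈ MulAction.fixedPoints S {x : V // x ∈ C ∧ B x x = 0} := by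
    intro g
    apply Subtype.ext
    have h1 := hsm g z
    have h2 : g.1 z.1 = 0 := map_zero _
    rw [h2, zero_sub, W.neg_mem_iff] at h1
    exact hdis _ (g • z).2.1 h1
  obtain ⟨b, hb, hzb⟩ := hp.exists_fixed_point_of_prime_dvd_card_of_fixed_point _ hdvd hz
  have hb0 : b.1 ≠ 0 := fun h0 => hzb (Subtype.ext h0.symm)
  have hbW : b.1 ∉ W := fun h0 => hb0 (hdis _ b.2.1 h0)
  have hbf : ∀ g ∈ S, g b.1 - b.1 ∈ W := by
    intro g hg
    have h1 := hsm ⟨g, hg⟩ b
    rwa [hb ⟨g, hg⟩] at h1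
  refine ⟨W ⊔ E ∙ b.1, ?_, ?_, ?_⟩
  · intro x hx y hy
    obtain ⟨w, hw, x', hx', rfl⟩ := Submodule.mem_sup.mp hx
    obtain ⟨w', hw', y', hy', rfl⟩ := Submodule.mem_sup.mp hy
    obtain ⟨c, rfl⟩ := Submodule.mem_span_singleton.mp hx'
    obtain ⟨d, rfl⟩ := Submodule.mem_span_singleton.mp hy'
    have h1 : B w b.1 = 0 := hCU b.2.1 w hw
    have h2 : B b.1 w' = 0 := hs.herm.flip_zero (hCU b.2.1 w' hw')
    rw [add_left, map_add, map_add, smul_left, smul_left, smul_right, smul_right, h1, h2,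
      hW w hw w' hw', b.2.2]
    simp
  · have h1 := Submodule.finrank_sup_add_finrank_inf_eq W (E ∙ b.1)
    have h2 : W ⊓ (E ∙ b.1) = ⊥ := by
      rw [eq_bot_iff]
      rintro x ⟨hx, hx'⟩
      obtain ⟨c, rfl⟩ := Submodule.mem_span_singleton.mp hx'
      exact (Submodule.mem_bot E).mpr (hdis _ (C.smul_mem c b.2.1) hx)
    rw [h2, finrank_bot, finrank_span_singleton hb0] at h1
    omega
  · intro g hg x hx
    obtain ⟨w, hw, x', hx', rfl⟩ := Submodule.mem_sup.mp hx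
    obtain ⟨c, rfl⟩ := Submodule.mem_span_singleton.mp hx'
    have e : g (w + c • b.1) = (g w + c • (g b.1 - b.1)) + c • b.1 := by
      rw [map_add, map_smul, smul_sub]; abel
    rw [e]
    exact Submodule.add_mem_sup (W.add_mem (hinv g hg w hw) (W.smul_mem c (hbf g hg)))
      (Submodule.smul_mem _ c (Submodule.mem_span_singleton_self _))

theorem syl1 : Cfsg.Agent.H25.UG.Syl1Stmt.{u} := by
  intro E V _ _ _ _ _ σ B q S hs h7 hS hp
  have : Module.Finite E V := Module.Finite.of_finite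
  have h0 : TotIso B (⊥ : Submodule E V) := by
    intro x hx y _
    rw [(Submodule.mem_bot E).mp hx, zero_left]
  have i0 : ∀ g ∈ S, ∀ w ∈ (⊥ : Submodule E V), g w ∈ (⊥ : Submodule E V) := by
    intro g _ w hw
    rw [(Submodule.mem_bot E).mp hw, map_zero]
    exact Submodule.zero_mem _
  obtain ⟨W1, t1, d1, i1⟩ := step hs hS hp h0 i0 (by rw [finrank_bot]; omega)
  rw [finrank_bot] at d1
  obtain ⟨W2, t2, d2, i2⟩ := step hs hS hp t1 i1 (by omega)
  obtain ⟨W, t3, d3, i3⟩ := step hs hS hp t2 i2 (by omega)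
  obtain ⟨C, hC, hdim, hCU, hdis, hact⟩ := key hs.herm hS t3 i3
  obtain ⟨inst, hsm⟩ := hact 1
  obtain ⟨k, hk, hpr, hqk⟩ := exists_pow_char hs.card
  have : Fact (ringChar E).Prime := ⟨hpr⟩
  have hcard := hs.herm.card_norm_eq_on hs.card hs.pow hC (a := 1) (map_one σ) one_ne_zero
  have hC1 : finrank E C = 1 := by omega
  have hcN : cN q 1 = q + 1 := by simp [cN]
  rw [hC1, hcN] at hcard
  have hnd : ¬ ringChar E ∣ Nat.card {x : V // x ∈ C ∧ B x x = 1} := by
    rw [hcard]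
    intro hd
    have h1 : ringChar E ∣ q := by rw [hqk]; exact dvd_pow_self _ hk.ne'
    exact hpr.one_lt.ne' (Nat.dvd_one.mp ((Nat.dvd_add_right h1).mp hd))
  obtain ⟨b, hb⟩ := hp.nonempty_fixed_point_of_prime_not_dvd_card _ hnd
  refine ⟨W, b.1, t3, by omega, i3, b.2.2, fun w hw => hCU b.2.1 w hw, fun g hg => ?_⟩
  have h1 := hsm ⟨g, hg⟩ b
  rwa [hb ⟨g, hg⟩] at h1

end Cfsg.Agent.H59.UGSyl1
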