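import Mathlib
import Cfsg.Agent.H63.AnDefs2

/-! Project AN: the local wreath bases over seven points glue together. -/

set_option autoImplicit false
set_option linter.unusedSectionVars false

namespace Cfsg.Agent.H59.AnGlue

open Cfsg Cfsg.Agent.H63 Cfsg.Agent.H63.AN Subgroup
open Cfsg.Agent.H7.AA (ev d2 KA ev_mul ev_conj ev_inv ev_one KA_ev sign_d2 d2_conj nodup4 d2_apply)
open Cfsg.Agent.H78 (altOn symOn swap_mem_symOn symOn_apply_mem)
open Equiv (swap Perm)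
open Equiv.Perm (sign)

universe u

section Perm

variable {α : Type} [Fintype α] [DecidableEq α]

theorem exists_map (Q : Finset α) (l : List α) : ∀ l' : List α, l.Nodup → l'.Nodup →
    l.length = l'.length → (∀ x ∈ l, x ∈ Q) → (∀ x ∈ l', x ∈ Q) →
    ∃ σ ∈ symOn Q, l.map σ = l' := by
  induction l with
  | nil =>
    intro l' _ _ h _ _
    exact ⟨1, one_mem _, (List.length_eq_zero_iff.1 h.symm).symm⟩
  | cons x m ih =>
    rintro (_ | ⟨x', m'⟩) h1 h2 h3 h4 h5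
    · simp at h3
    obtain ⟨a1, a2⟩ := List.nodup_cons.1 h1
    obtain ⟨b1, b2⟩ := List.nodup_cons.1 h2
    obtain ⟨τ, hτ, e⟩ := ih m' a2 b2 (by simpa using h3) (fun y hy => h4 y (by simp [hy]))
      (fun y hy => h5 y (by simp [hy]))
    refine ⟨swap (τ x) x' * τ, mul_mem (swap_mem_symOn (symOn_apply_mem hτ (h4 x (by simp)))
      (h5 x' (by simp))) hτ, ?_⟩
    rw [List.map_cons, Equiv.Perm.mul_apply, Equiv.swap_apply_left, ← e]
    congr 1
    refine List.map_congr_left fun y hy => ?_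
    rw [Equiv.Perm.mul_apply]
    refine Equiv.swap_apply_of_ne_of_ne (fun h => a1 (τ.injective h ▸ hy)) fun h => b1 ?_
    rw [← h, ← e]
    exact List.mem_map_of_mem hy

theorem d2_mem {Q : Finset α} {a b c d : α} (ha : a ∈ Q) (hb : b ∈ Q) (hc : c ∈ Q) (hd : d ∈ Q) :
    d2 a b c d ∈ symOn Q := mul_mem (swap_mem_symOn ha hb) (swap_mem_symOn hc hd)

theorem mem_of_d2 {Q : Finset α} {a b c d : α} (h : [a, b, c, d].Nodup)
    (hQ : d2 a b c d ∈ symOn Q) : ∀ x ∈ [a, b, c, d], x ∈ Q := by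
  obtain ⟨h1, h2, h3, h4, h5, h6⟩ := nodup4.1 h
  intro x hx
  by_contra hn
  have := hQ x hn
  simp only [List.mem_cons, List.not_mem_nil, or_false] at hx
  simp only [d2_apply, Equiv.swap_apply_def] at this
  grind

theorem sign_D {w : Perm α} (h : IsD2 w) : sign w = 1 := by
  obtain ⟨a, b, c, d, hn, rfl⟩ := h
  obtain ⟨h1, -, -, -, -, h6⟩ := nodup4.1 hn
  exact sign_d2 h1 h6

theorem sq_D {w : Perm α} (h : IsD2 w) : w * w = 1 := by
  obtain ⟨a, b, c, d, hn, rfl⟩ := h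
  obtain ⟨h1, h2, h3, h4, h5, h6⟩ := nodup4.1 hn
  ext x
  simp only [Equiv.Perm.mul_apply, d2_apply, Equiv.swap_apply_def, Equiv.Perm.one_apply]
  grind

theorem conj_D {w : Perm α} (h : IsD2 w) (σ : Perm α) : IsD2 (σ * w * σ⁻¹) := by
  obtain ⟨a, b, c, d, hn, rfl⟩ := h
  exact ⟨σ a, σ b, σ c, σ d, hn.map σ.injective, d2_conj σ a b c d⟩

theorem trans_D {Q : Finset α} {w w' : Perm α} (h : InQ Q w) (h' : InQ Q w') :
    ∃ σ ∈ altOn Q, σ * w * σ⁻¹ = w' := by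
  obtain ⟨⟨a, b, c, d, hn, rfl⟩, hQ⟩ := h
  obtain ⟨⟨a', b', c', d', hn', rfl⟩, hQ'⟩ := h'
  have hm := mem_of_d2 hn hQ
  obtain ⟨σ, hσ, e⟩ := exists_map Q _ _ hn hn' rfl hm (mem_of_d2 hn' hQ')
  simp only [List.map_cons, List.map_nil, List.cons.injEq, and_true] at e
  obtain ⟨rfl, rfl, rfl, rfl⟩ := e
  obtain ⟨h1, h2, h3, h4, h5, h6⟩ := nodup4.1 hn
  rcases Int.units_eq_one_or (sign σ) with s | s
  · exact ⟨σ, ⟨hσ, s⟩, d2_conj σ a b c d⟩
  · refine ⟨σ * swap a b, ⟨mul_mem hσ (swap_mem_symOn (hm a (by simp)) (hm b (by simp))), ?_⟩, ?_⟩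
    · change sign (σ * swap a b) = 1
      rw [map_mul, s, Equiv.Perm.sign_swap h1]; rfl
    · rw [d2_conj]
      simp only [Equiv.Perm.mul_apply, Equiv.swap_apply_left, Equiv.swap_apply_right,
        Equiv.swap_apply_of_ne_of_ne h2.symm h4.symm, Equiv.swap_apply_of_ne_of_ne h3.symm h5.symm]
      rw [d2, d2, Equiv.swap_comm]

theorem trans_D' {w w' : Perm α} (h : IsD2 w) (h' : IsD2 w') :
    ∃ σ : Perm α, sign σ = 1 ∧ σ * w * σ⁻¹ = w' := by
  obtain ⟨σ, hσ, e⟩ := trans_D (Q := Finset.univ) ⟨h, fun x hx => (hx (Finset.mem_univ x)).elim⟩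
    ⟨h', fun x hx => (hx (Finset.mem_univ x)).elim⟩
  exact ⟨σ, hσ.2, e⟩

theorem exQ (h9 : 9 ≤ Fintype.card α) (l : List α) (h : l.toFinset.card ≤ 7) :
    ∃ Q : Finset α, Q.card = 7 ∧ ∀ x ∈ l, x ∈ Q := by
  obtain ⟨Q, h1, h2⟩ := Finset.exists_superset_card_eq h (by omega : 7 ≤ Fintype.card α)
  exact ⟨Q, h2, fun x hx => h1 (List.mem_toFinset.2 hx)⟩

theorem exQ' (h9 : 9 ≤ Fintype.card α) (l : List α) (h : l.length ≤ 7) :
    ∃ Q : Finset α, Q.card = 7 ∧ ∀ x ∈ l, x ∈ Q := exQ h9 l ((List.toFinset_card_le l).trans h)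

theorem exists_D (h9 : 9 ≤ Fintype.card α) : ∃ w : Perm α, IsD2 w := by
  obtain ⟨e⟩ := Function.Embedding.nonempty_of_card_le
    (α := Fin 4) (β := α) (by rw [Fintype.card_fin]; omega)
  refine ⟨_, e 0, e 1, e 2, e 3, ?_, rfl⟩
  simp [e.injective.eq_iff]

end Perm

section Group

variable {G : Type u} [Group G] {α : Type} [Fintype α] [DecidableEq α]
  {ψ : alternatingGroup α →* G} {t : G}

theorem can_conj (tK : t ∈ KA ψ) {w : Perm α} (hw : sign w = 1) {g : G} (h : Can ψ t w g)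
    {a : Perm α} (ha : sign a = 1) :
    Can ψ t (a * w * a⁻¹) (ev ψ a * g * (ev ψ a)⁻¹) := by
  have ta := KA_ev tK a
  refine ⟨?_, ?_, fun b hb => ?_, fun k hk kt ko => ?_⟩
  · calc ev ψ a * g * (ev ψ a)⁻¹ * (ev ψ a * g * (ev ψ a)⁻¹) = ev ψ a * (g * g) * (ev ψ a)⁻¹ := by
          group
      _ = 1 := by rw [h.sq]; group
  · rw [ev_conj ha hw]
    calc ev ψ a * g * (ev ψ a)⁻¹ * t * (ev ψ a * g * (ev ψ a)⁻¹)⁻¹
        = ev ψ a * g * (ev ψ a)⁻¹ * (t * ev ψ a) * g⁻¹ * (ev ψ a)⁻¹ := by group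
      _ = ev ψ a * (g * t * g⁻¹) * (ev ψ a)⁻¹ := by rw [ta]; group
      _ = (ev ψ a * t) * ev ψ w * (ev ψ a)⁻¹ := by rw [h.gt]; group
      _ = _ := by rw [← ta]; group
  · obtain ⟨b1, b2⟩ := mem_CA.1 hb
    have hb' : a⁻¹ * b * a⁻¹⁻¹ ∈ CA w := mem_CA.2 ⟨by
      have e : b * (a * w * a⁻¹) = a * w * a⁻¹ * b := b1
      change a⁻¹ * b * a⁻¹⁻¹ * w = w * (a⁻¹ * b * a⁻¹⁻¹)
      calc a⁻¹ * b * a⁻¹⁻¹ * w = a⁻¹ * (b * (a * w * a⁻¹)) * a := by group
        _ = _ := by rw [e]; group, by simp [b2]⟩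
    have e : g * _ = _ * g := h.cA _ hb'
    rw [ev_conj (by simp [ha]) b2, ev_inv ha] at e
    change _ * _ = _ * _
    calc ev ψ a * g * (ev ψ a)⁻¹ * ev ψ b
        = ev ψ a * (g * ((ev ψ a)⁻¹ * ev ψ b * (ev ψ a)⁻¹⁻¹)) * (ev ψ a)⁻¹ := by group
      _ = _ := by rw [e]; group
  · have c1 : Commute (ev ψ a) k := (KA_ev hk a).symm
    exact (c1.mul_left (h.cO k hk kt ko)).mul_left c1.inv_left

/-- the equivariant family of canonical involutions -/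
theorem exists_family (tK : t ∈ KA ψ) {w0 : Perm α} (h0 : IsD2 w0) {g0 : G} (hg : Can ψ t w0 g0) :
    ∃ f : Perm α → G, (∀ w, IsD2 w → Can ψ t w (f w)) ∧ ∀ w, IsD2 w → ∀ a : Perm α, sign a = 1 →
      ev ψ a * f w * (ev ψ a)⁻¹ = f (a * w * a⁻¹) := by
  have key : ∀ w : Perm α, ∃ g : G, ∀ a : Perm α, sign a = 1 → a * w0 * a⁻¹ = w →
      g = ev ψ a * g0 * (ev ψ a)⁻¹ := by
    intro w
    by_cases h : ∃ a : Perm α, sign a = 1 ∧ a * w0 * a⁻¹ = w
    · obtain ⟨a, ha, rfl⟩ := h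
      refine ⟨ev ψ a * g0 * (ev ψ a)⁻¹, fun b hb e => ?_⟩
      have hc : b⁻¹ * a ∈ CA w0 := mem_CA.2 ⟨by
        change b⁻¹ * a * w0 = w0 * (b⁻¹ * a)
        calc b⁻¹ * a * w0 = b⁻¹ * (a * w0 * a⁻¹) * a := by group
          _ = _ := by rw [← e]; group, by simp [ha, hb]⟩
      have e1 : g0 * _ = _ * g0 := hg.cA _ hc
      rw [ev_mul (by simp [hb]) ha, ev_inv hb] at e1
      calc ev ψ a * g0 * (ev ψ a)⁻¹
          = ev ψ b * ((ev ψ b)⁻¹ * ev ψ a * g0) * (ev ψ a)⁻¹ := by group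
        _ = _ := by rw [← e1]; group
    · exact ⟨1, fun a ha e => absurd ⟨a, ha, e⟩ h⟩
  choose f hf using key
  refine ⟨f, fun w hw => ?_, fun w hw a ha => ?_⟩
  · obtain ⟨b, hb, rfl⟩ := trans_D' h0 hw
    rw [hf _ b hb rfl]
    exact can_conj tK (sign_D h0) hg hb
  · obtain ⟨b, hb, rfl⟩ := trans_D' h0 hw
    rw [hf _ b hb rfl, hf _ (a * b) (by simp [ha, hb]) (by group), ev_mul ha hb]
    group

theorem local_facts {f F : Perm α → G} {Q : Finset α} (hc : ∀ w, IsD2 w → Can ψ t w (f w))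
    (he : ∀ w, IsD2 w → ∀ a : Perm α, sign a = 1 → ev ψ a * f w * (ev ψ a)⁻¹ = f (a * w * a⁻¹))
    (hF : Loc ψ t Q F) (hu : ∀ w, InQ Q w → F w = f w ∨ F w = f w * ev ψ w) :
    (∀ w w', InQ Q w → InQ Q w' → Commute (f w) (f w' * ev ψ w')) ∧
    ∀ v v', InQ Q v → InQ Q v' → InQ Q (v * v') → Commute v v' → f (v * v') = f v * f v' := by
  by_cases h : ∀ w, InQ Q w → F w = f w
  · exact ⟨fun w w' a b => by rw [← h w a, ← h w' b]; exact hF.com w w' a b,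
      fun v v' a b c d => by rw [← h v a, ← h v' b, ← h _ c]; exact hF.mul v v' a b c d⟩
  push Not at h
  obtain ⟨w1, h1, n1⟩ := h
  have e1 := (hu w1 h1).resolve_left n1
  have h : ∀ w, InQ Q w → F w = f w * ev ψ w := by
    intro w hw
    obtain ⟨a, ha, rfl⟩ := trans_D h1 hw
    rw [← hF.eqv w1 h1 a ha, e1, ← he w1 h1.1 a ha.2, ev_conj ha.2 (sign_D h1.1)]
    group
  refine ⟨fun w w' a b => ?_, fun v v' a b c d => ?_⟩
  · have := hF.com w' w b a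
    rw [h w a, h w' b, mul_assoc (f w), ← ev_mul (sign_D a.1) (sign_D a.1), sq_D a.1, ev_one,
      mul_one] at this
    exact this.symm
  · have := hF.mul v v' a b c d
    have e : f v' * ev ψ v = ev ψ v * f v' := (hc v' b.1).cA v (mem_CA.2 ⟨d, sign_D a.1⟩)
    rw [h v a, h v' b, h _ c, ev_mul (sign_D a.1) (sign_D b.1)] at this
    have e2 : f v * ev ψ v * (f v' * ev ψ v') = f v * f v' * (ev ψ v * ev ψ v') := by
      calc f v * ev ψ v * (f v' * ev ψ v') = f v * (ev ψ v * f v') * ev ψ v' := by group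
        _ = _ := by rw [← e]; group
    rw [e2] at this
    exact mul_right_cancel this

end Group

theorem glue (can : CanStmt.{u}) (uni : UniStmt.{u}) : GlueStmt.{u} := by
  intro G _ _ α _ _ ψ t bs kit fr hQ
  have h9 := bs.nine
  obtain ⟨w0, h0⟩ := exists_D h9
  obtain ⟨g0, hg⟩ : ∃ g0, Can ψ t w0 g0 := by
    obtain ⟨a, b, c, d, hn, rfl⟩ := h0
    obtain ⟨Q, cQ, mQ⟩ := exQ' h9 [a, b, c, d] (by simp)
    obtain ⟨F, hF⟩ := hQ Q cQ
    exact ⟨_, can ψ t bs kit fr Q cQ F hF _ ⟨⟨a, b, c, d, hn, rfl⟩,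
      d2_mem (mQ _ (by simp)) (mQ _ (by simp)) (mQ _ (by simp)) (mQ _ (by simp))⟩⟩
  obtain ⟨f, hc, he⟩ := exists_family bs.tK h0 hg
  have loc : ∀ Q : Finset α, Q.card = 7 →
      (∀ w w', InQ Q w → InQ Q w' → Commute (f w) (f w' * ev ψ w')) ∧
      ∀ v v', InQ Q v → InQ Q v' → InQ Q (v * v') → Commute v v' → f (v * v') = f v * f v' := by
    intro Q cQ
    obtain ⟨F, hF⟩ := hQ Q cQ
    exact local_facts hc he hF fun w hw =>
      uni ψ t bs kit fr w hw.1 _ _ (hc w hw.1) (can ψ t bs kit fr Q cQ F hF w hw)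
  have small : ∀ a b c d a' b' c' d' : α, [a, b, c, d].Nodup → [a', b', c', d'].Nodup →
      [a, b, c, d, a', b', c', d'].toFinset.card ≤ 7 →
      Commute (f (d2 a b c d)) (f (d2 a' b' c' d') * ev ψ (d2 a' b' c' d')) := by
    intro a b c d a' b' c' d' hn hn' h7
    obtain ⟨Q, cQ, mQ⟩ := exQ h9 _ h7
    exact (loc Q cQ).1 _ _ ⟨⟨_, _, _, _, hn, rfl⟩,
      d2_mem (mQ _ (by simp)) (mQ _ (by simp)) (mQ _ (by simp)) (mQ _ (by simp))⟩
      ⟨⟨_, _, _, _, hn', rfl⟩,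
      d2_mem (mQ _ (by simp)) (mQ _ (by simp)) (mQ _ (by simp)) (mQ _ (by simp))⟩
  have lt8 : ∀ l : List α, l.length = 8 → ¬ l.Nodup → l.toFinset.card ≤ 7 := by
    intro l h8 hn
    have h1 := List.toFinset_card_le l
    have h2 : l.toFinset.card ≠ l.length := fun e =>
      hn (Multiset.toFinset_card_eq_card_iff_nodup (m := (l : Multiset α)).1 e)
    omega
  refine ⟨f, fun w hw => (hc w hw).sq, fun w hw => (hc w hw).gt, he, ?_,
    fun w hw => (hc w hw).cO⟩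
  rintro _ _ ⟨a, b, c, d, hn, rfl⟩ ⟨a', b', c', d', hn', rfl⟩
  by_cases h8 : [a, b, c, d, a', b', c', d'].Nodup
  swap
  · exact small _ _ _ _ _ _ _ _ hn hn' (lt8 _ rfl h8)
  simp only [List.nodup_cons, List.mem_cons, List.not_mem_nil, or_false, not_or, not_false_eq_true,
    List.nodup_nil, and_true] at h8
  have n1 : [a, b, a', b'].Nodup := nodup4.2 (by grind)
  have n2 : [a', b', c, d].Nodup := nodup4.2 (by grind)
  have e : d2 a b a' b' * d2 a' b' c d = d2 a b c d := by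
    rw [d2, d2, d2, mul_assoc, Equiv.swap_mul_self_mul]
  have cm : Commute (d2 a b a' b') (d2 a' b' c d) := by
    have s1 := sq_D ⟨_, _, _, _, n1, rfl⟩
    have s2 := sq_D ⟨_, _, _, _, n2, rfl⟩
    have s3 := sq_D ⟨_, _, _, _, hn, rfl⟩
    rw [← e] at s3
    change _ * _ = _ * _
    rw [← inv_eq_of_mul_eq_one_right s3, mul_inv_rev, inv_eq_of_mul_eq_one_right s1,
      inv_eq_of_mul_eq_one_right s2]
  obtain ⟨Q, cQ, mQ⟩ := exQ' h9 [a, b, c, d, a', b'] (by simp)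
  have m := (loc Q cQ).2 _ _ ⟨⟨_, _, _, _, n1, rfl⟩,
      d2_mem (mQ _ (by simp)) (mQ _ (by simp)) (mQ _ (by simp)) (mQ _ (by simp))⟩
    ⟨⟨_, _, _, _, n2, rfl⟩,
      d2_mem (mQ _ (by simp)) (mQ _ (by simp)) (mQ _ (by simp)) (mQ _ (by simp))⟩
    (by rw [e]; exact ⟨⟨_, _, _, _, hn, rfl⟩,
      d2_mem (mQ _ (by simp)) (mQ _ (by simp)) (mQ _ (by simp)) (mQ _ (by simp))⟩) cm
  rw [e] at m
  rw [m]
  exact (small _ _ _ _ _ _ _ _ n1 hn' (lt8 _ rfl (by simp))).mul_left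
    (small _ _ _ _ _ _ _ _ n2 hn' (lt8 _ rfl (by simp)))

end Cfsg.Agent.H59.AnGlue
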