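import Mathlib
import Cfsg.Agent.H17.LPDefs
import Cfsg.Agent.H34.CR1
import Cfsg.Agent.H75.ModSL

/-! Project LP: existence and uniqueness of weights of simple `F₂ SL₅(2)`-modules. -/

set_option autoImplicit false

namespace Cfsg.Agent.H59.LpWt

open Cfsg Cfsg.Agent.H17.LP Cfsg.Agent.H34 Cfsg.Agent.H80 Cfsg.Agent.H75
open scoped commutatorElement

universe u

noncomputable abbrev P : Split (sysA 4) SL5 := (rdlA 4 F).split

theorem mem_X {r : RA 5} {g : SL5} (h : g ∈ P.X r) : g = 1 ∨ g = xA r 1 := by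
  obtain ⟨t, rfl⟩ := (mem_parHom_range _ g).1 h
  have : t = 0 ∨ t = 1 := (by decide : ∀ t : F, t = 0 ∨ t = 1) t
  rcases this with rfl | rfl
  · exact Or.inl (par_zero (xA_add r))
  · exact Or.inr rfl

theorem H_triv {g : SL5} (h : g ∈ P.H) : g = 1 := by
  obtain ⟨c, hc⟩ := h
  ext a b
  have : c b = 1 := Subsingleton.elim _ _
  rw [hc a b, this]
  by_cases e : a = b <;> simp [e]

theorem x_eq (i : Fin 4) : xA ((sysA 4).α i) (1 : F) = X (i + 1) (i + 1 + 1) := by
  fin_cases i <;> rfl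

theorem y_eq (i : Fin 4) : xA ((sysA 4).neg ((sysA 4).α i)) (1 : F) = X (i + 1 + 1) (i + 1) := by
  fin_cases i <;> rfl

theorem n_eq (i : Fin 4) : (rdA F 4).n i =
    X (i + 1) (i + 1 + 1) * X (i + 1 + 1) (i + 1) * X (i + 1) (i + 1 + 1) := by
  rw [← x_eq, ← y_eq]
  change xA _ ((1 : Fˣ) : F) * xA _ (-((1 : Fˣ) : F)⁻¹) * xA _ ((1 : Fˣ) : F) = _
  have : (-((1 : Fˣ) : F)⁻¹) = 1 := by rw [Units.val_one, inv_one]; rfl
  rw [this, Units.val_one]

theorem xx (i : Fin 4) : X (i + 1) (i + 1 + 1) * X (i + 1) (i + 1 + 1) = 1 := by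
  apply Subtype.ext
  revert i
  decide

theorem yy (i : Fin 4) : X (i + 1 + 1) (i + 1) * X (i + 1 + 1) (i + 1) = 1 := by
  apply Subtype.ext
  revert i
  decide

theorem braid (i : Fin 4) : X (i + 1 + 1) (i + 1) * X (i + 1) (i + 1 + 1) * X (i + 1 + 1) (i + 1) =
    X (i + 1) (i + 1 + 1) * X (i + 1 + 1) (i + 1) * X (i + 1) (i + 1 + 1) := by
  apply Subtype.ext
  revert i
  decide

noncomputable def D : CR.Data P Unit where
  n i := (rdA F 4).n i
  n_mem i := ⟨[i], by simp⟩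
  ν_n i := by
    change rdν _ _ = _
    rw [rdν_eq _ (l := [i]) (by simp), SignedSys.word_singleton]
  η _ := 1
  η_mem _ _ := one_mem _
  gen K _ g hg := by rw [H_triv hg]; exact one_mem _
  y i _ := xA ((sysA 4).α i) 1
  y_mem i _ := xA_mem _ _
  y_ne i _ h := one_ne_zero (xA_inj _ _ h)
  y_inj _ _ _ _ := rfl
  y_surj i x hx h1 := ⟨(), ((mem_X hx).resolve_left h1).symm⟩
  rel i a := by
    refine ⟨_, xA_mem _ 1, _, xA_mem _ 1, ?_⟩
    rw [n_eq, x_eq, MonoidHom.one_apply, mul_one]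
    have h1 := xx i
    have h2 := braid i
    generalize X (i + 1) (i + 1 + 1) = x at *
    generalize X (i + 1 + 1) (i + 1) = y at *
    calc x * y * x * x * (x * y * x) = x * y * (x * x) * x * y * x := by group
      _ = x * (y * x * y) * x := by rw [h1]; group
      _ = _ := by rw [h2]

theorem hU : IsPGroup 2 P.Up :=
  RD.isPGroup_U (P := rdA F 4) (coordA 4).phi (fun r _ => (parA F 4).isPGroup r)

variable {W : Type*} [AddCommGroup W] [Module F W] {ρ : Representation F SL5 W}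

theorem two (w : W) : w + w = 0 := by
  rw [← two_smul F w]
  exact zero_smul F w

theorem T_eq {v : W} (i : Fin 4) (h : ρ (X (i + 1) (i + 1 + 1)) v = v) :
    CR.T P ρ i (D.n i) v = ρ (X (i + 1 + 1) (i + 1)) v +
      ρ (X (i + 1) (i + 1 + 1) * X (i + 1 + 1) (i + 1)) v := by
  rw [CR.T, D.sum_X, Fintype.sum_unique, add_comm]
  change ρ (xA _ 1 * (rdA F 4).n i) v + ρ (1 * (rdA F 4).n i) v = _
  rw [one_mul, n_eq, x_eq, ← mul_assoc, ← mul_assoc, xx, one_mul, CR.rho_mul, h, CR.rho_mul, h]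

theorem forall_iff {Q : ℕ → Prop} : (∀ i ∈ [1, 2, 3, 4], Q i) ↔ ∀ i : Fin 4, Q (i + 1) := by
  simp [Fin.forall_fin_succ]

theorem fix_Up {v : W} (h : ∀ i : Fin 4, ρ (X (i + 1) (i + 1 + 1)) v = v) :
    ∀ g ∈ P.Up, ρ g v = v := by
  let K : Subgroup SL5 :=
    { carrier := {g | ρ g v = v}
      one_mem' := by simp
      mul_mem' := fun {a b} ha hb => by
        change ρ (a * b) v = v
        rw [CR.rho_mul, hb, ha]
      inv_mem' := fun {a} ha => by
        change ρ a⁻¹ v = v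
        conv_lhs => rw [← show ρ a v = v from ha]
        rw [← CR.rho_mul, inv_mul_cancel, map_one]; rfl }
  have key : ∀ d : ℕ, ∀ (a b : Fin 5) (hab : a ≠ b), (b : ℕ) = a + d + 1 →
      xA ⟨(a, b), hab⟩ (1 : F) ∈ K := by
    intro d
    induction d with
    | zero =>
      intro a b hab e
      have ha : (a : ℕ) < 4 := by omega
      have := h ⟨a, ha⟩
      rw [← x_eq] at this
      have e2 : (sysA 4).α ⟨a, ha⟩ = ⟨(a, b), hab⟩ :=
        Subtype.ext (Prod.ext (Fin.ext rfl) (Fin.ext (by change (a : ℕ) + 1 = b; omega)))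
      rwa [e2] at this
    | succ d ih =>
      intro a b hab e
      have hb := b.2
      let c : Fin 5 := ⟨a + d + 1, by omega⟩
      have h1 : a ≠ c := fun e' => by have := congrArg Fin.val e'; simp [c] at this; omega
      have h2 : c ≠ b := fun e' => by have := congrArg Fin.val e'; simp [c] at this; omega
      have h3 := xA_comm (K := F) h1 h2 hab 1 1
      rw [mul_one] at h3
      rw [← h3, commutatorElement_def]
      have k1 := ih a c h1 rfl
      have k2 : xA ⟨(c, b), h2⟩ (1 : F) ∈ K := by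
        have hc : (c : ℕ) < 4 := by simp [c]; omega
        have := h ⟨c, hc⟩
        rw [← x_eq] at this
        have e2 : (sysA 4).α ⟨c, hc⟩ = ⟨(c, b), h2⟩ :=
          Subtype.ext (Prod.ext (Fin.ext rfl) (Fin.ext (by change (a : ℕ) + d + 1 + 1 = b; omega)))
        rwa [e2] at this
      exact mul_mem (mul_mem (mul_mem k1 k2) (inv_mem k1)) (inv_mem k2)
  intro g hg
  refine (Subgroup.closure_le K).2 ?_ hg
  rintro x ⟨⟨⟨a, b⟩, hab⟩, hr, hx⟩
  rcases mem_X hx with rfl | rfl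
  · exact K.one_mem
  · have : (a : ℕ) < b := hr
    exact key (b - a - 1) a b hab (by omega)

theorem wtEx : WtExStmt.{u} := by
  intro W _ _ _ ρ hs
  have := hs.1
  obtain ⟨m, -, h0, hm⟩ := H59.exists_ne_zero_fixed_of_isPGroup hU
    (ρ.comp P.Up.subtype) ⊤ (fun _ _ _ => trivial) top_ne_bot
  obtain ⟨v, hv0, l, hl⟩ := D.exists_isWt (ρ := ρ) hU (m := m)
    ⟨fun u hu => hm ⟨u, hu⟩, fun g hg => ⟨1, by rw [H_triv hg]; simp⟩⟩ h0
  have hx : ∀ i : Fin 4, ρ (X (i + 1) (i + 1 + 1)) v = v := fun i =>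
    hl.1 _ (CR.X_le_Up (x_eq i ▸ xA_mem _ _))
  refine ⟨v, fun k => if h : k - 1 < 4 then (l ⟨k - 1, h⟩).isNone else false, hv0,
    forall_iff.2 hx, forall_iff.2 fun i => ?_⟩
  have h1 := (hl.2 i).2
  rw [T_eq i (hx i)] at h1
  have e : (if h : (i : ℕ) + 1 - 1 < 4 then (l ⟨i + 1 - 1, h⟩).isNone else false) =
      (l i).isNone := by simp
  simp only [e]
  cases hi : l i with
  | none => simpa [hi] using h1
  | some a =>
    simp only [hi, Option.isSome_some, if_true, zero_smul] at h1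
    simp only [Option.isNone_some, Bool.false_eq_true, if_false]
    have h2 : ρ (X (i + 1) (i + 1 + 1) * X (i + 1 + 1) (i + 1)) v = ρ (X (i + 1 + 1) (i + 1)) v := by
      rw [← add_zero (ρ (X (i + 1 + 1) (i + 1)) v), ← h1, ← add_assoc, two, zero_add]
    have h3 := congrArg (ρ (X (i + 1 + 1) (i + 1))) h2
    rw [← CR.rho_mul, ← CR.rho_mul, yy, ← mul_assoc, braid, CR.rho_mul, hx, h2, map_one] at h3
    exact h3

theorem isWt {v : W} {I : ℕ → Bool} (h : Wt ρ v I) :
    D.IsWt ρ v fun i => if I (i + 1) then none else some 1 := by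
  have hx := forall_iff.1 h.2.1
  refine ⟨fix_Up hx, fun i => ⟨fun a => ?_, ?_⟩⟩
  · have : ((if I (i + 1) then none else some 1 : Option (Unit →* F)).getD 1) a = 1 := by
      split_ifs <;> rfl
    rw [this, one_smul]
    change ρ 1 v = v
    simp
  · have h1 := forall_iff.1 h.2.2 i
    rw [T_eq i (hx i)]
    by_cases hI : I (i + 1) = true
    · simpa [hI] using h1
    · simp only [hI, Bool.false_eq_true, if_false] at h1 ⊢
      rw [CR.rho_mul, h1, hx, two]
      simp

theorem wtUq : WtUqStmt.{u} := by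
  intro W _ _ _ W' _ _ _ ρ ρ' v v' I I' hs hs' hw hw' hI
  have := hs.1
  have := hs'.1
  have h1 := isWt hw
  have h2 := isWt hw'
  have e : (fun i : Fin 4 => (if I' (i + 1) then none else some 1 : Option (Unit →* F))) =
      fun i : Fin 4 => if I (i + 1) then none else some 1 := by
    funext i
    rw [forall_iff.1 hI i]
  rw [e] at h2
  let S : Submodule F (W × W') := Submodule.span F (Set.range fun g => (ρ.prod ρ') g (v, v'))
  have hS : ¬ ∀ z, z ∈ S := fun h => D.not_isWt hU h1 h2 h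
  have hinv : ∀ g, ∀ z ∈ S, (ρ g z.1, ρ' g z.2) ∈ S := by
    intro g z hz
    have : S.map ((ρ.prod ρ') g) ≤ S := by
      rw [Submodule.map_span, Submodule.span_le]
      rintro _ ⟨_, ⟨k, rfl⟩, rfl⟩
      exact Submodule.subset_span ⟨g * k, CR.rho_mul _ g k _⟩
    exact this ⟨z, hz, rfl⟩
  have h0 : (v, v') ∈ S := Submodule.subset_span ⟨1, by simp⟩
  have s1 : ∀ w, ∃ w', (w, w') ∈ S := by
    rcases hs.2 (S.map (LinearMap.fst F W W')) (by
      rintro g _ ⟨z, hz, rfl⟩; exact ⟨_, hinv g z hz, rfl⟩) with h | h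
    · exact absurd ((Submodule.mem_bot F).1 (h ▸ ⟨_, h0, rfl⟩)) hw.1
    · intro w
      obtain ⟨z, hz, rfl⟩ : w ∈ S.map (LinearMap.fst F W W') := h ▸ trivial
      exact ⟨z.2, hz⟩
  have s2 : ∀ w', ∃ w, (w, w') ∈ S := by
    rcases hs'.2 (S.map (LinearMap.snd F W W')) (by
      rintro g _ ⟨z, hz, rfl⟩; exact ⟨_, hinv g z hz, rfl⟩) with h | h
    · exact absurd ((Submodule.mem_bot F).1 (h ▸ ⟨_, h0, rfl⟩)) hw'.1
    · intro w
      obtain ⟨z, hz, rfl⟩ : w ∈ S.map (LinearMap.snd F W W') := h ▸ trivial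
      exact ⟨z.1, hz⟩
  have i1 : ∀ w, (w, 0) ∈ S → w = 0 := by
    rcases hs.2 (S.comap (LinearMap.inl F W W')) (by
      intro g w hw
      have := hinv g _ hw
      simpa using this) with h | h
    · intro w hw
      exact (Submodule.mem_bot F).1 (h ▸ hw)
    · refine absurd (fun z => ?_) hS
      obtain ⟨w, hw⟩ := s2 z.2
      have h3 : z.1 - w ∈ S.comap (LinearMap.inl F W W') := h ▸ trivial
      have := S.add_mem h3 hw
      simpa using this
  have i2 : ∀ w', (0, w') ∈ S → w' = 0 := by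
    rcases hs'.2 (S.comap (LinearMap.inr F W W')) (by
      intro g w hw
      have := hinv g _ hw
      simpa using this) with h | h
    · intro w hw
      exact (Submodule.mem_bot F).1 (h ▸ hw)
    · refine absurd (fun z => ?_) hS
      obtain ⟨w, hw⟩ := s1 z.1
      have h3 : z.2 - w ∈ S.comap (LinearMap.inr F W W') := h ▸ trivial
      have := S.add_mem h3 hw
      simpa using this
  let f1 : S →ₗ[F] W := (LinearMap.fst F W W').comp S.subtype
  let f2 : S →ₗ[F] W' := (LinearMap.snd F W W').comp S.subtype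
  have b1 : Function.Bijective f1 := by
    refine ⟨(injective_iff_map_eq_zero _).2 ?_, fun w => ?_⟩
    · rintro ⟨⟨a, b⟩, hz⟩ h
      obtain rfl : a = 0 := h
      obtain rfl := i2 b hz
      rfl
    · obtain ⟨w', h⟩ := s1 w
      exact ⟨⟨_, h⟩, rfl⟩
  have b2 : Function.Bijective f2 := by
    refine ⟨(injective_iff_map_eq_zero _).2 ?_, fun w => ?_⟩
    · rintro ⟨⟨a, b⟩, hz⟩ h
      obtain rfl : b = 0 := h
      obtain rfl := i1 a hz
      rfl
    · obtain ⟨w', h⟩ := s2 w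
      exact ⟨⟨_, h⟩, rfl⟩
  let e1 := LinearEquiv.ofBijective f1 b1
  let e2 := LinearEquiv.ofBijective f2 b2
  refine ⟨e2.symm.trans e1, fun g w => ?_⟩
  obtain ⟨z, rfl⟩ := e2.surjective w
  have : ρ' g (e2 z) = e2 ⟨_, hinv g z.1 z.2⟩ := rfl
  rw [this, LinearEquiv.trans_apply, LinearEquiv.trans_apply, e2.symm_apply_apply,
    e2.symm_apply_apply]
  rfl

end Cfsg.Agent.H59.LpWt
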