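import Mathlib
import Cfsg.Agent.H59.OnO
import Cfsg.Agent.H44.G41
import Cfsg.Agent.S0813

/-!
# The subgroups `L₃(7):2` of the O'Nan group
-/

set_option autoImplicit false
set_option maxRecDepth 200000

namespace Cfsg.Agent.H59

open Cfsg.Agent.H44 Subgroup

theorem exists_emb {L X : Type*} [Group L] [Group X] (N : Subgroup X) [N.Normal]
    (cN : centralizer (N : Set X) = ⊥) (e : N ≃* L) :
    ∃ A : Subgroup (MulAut L), Cfsg.Inn L ≤ A ∧ Nonempty (X ≃* A) := by
  refine ⟨((MulAut.congr e).toMonoidHom.comp MulAut.conjNormal).range, ?_,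
    ⟨MonoidHom.ofInjective ((injective_iff_map_eq_one _).2 fun x hx => ?_)⟩⟩
  · rintro _ ⟨l, rfl⟩
    refine ⟨e.symm l, MulEquiv.ext fun y => e.symm.injective (Subtype.ext ?_)⟩
    simp [MulAut.congr]
  · rw [← mem_bot, ← cN, mem_centralizer_iff]
    intro n hn
    have := congrArg (fun y => (e.symm y : X)) (DFunLike.congr_fun hx (e ⟨n, hn⟩))
    exact (mul_inv_eq_iff_eq_mul.1 (by simpa [MulAut.congr] using this)).symm

/-- Extensions of degree two inside an automorphism group with `|Out| = 6`. -/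
theorem iso_of_out {L X Y : Type*} [Group L] [Group X] [Group Y] [Finite L]
    (hL : Nat.card (MulAut L) = 6 * Nat.card L) (hZ : center L = ⊥)
    (N : Subgroup X) [N.Normal] (hN : N.index = 2) (cN : centralizer (N : Set X) = ⊥) (e : N ≃* L)
    (M : Subgroup Y) [M.Normal] (hM : M.index = 2) (cM : centralizer (M : Set Y) = ⊥)
    (f : M ≃* L) : Nonempty (X ≃* Y) := by
  have : Finite (MulAut L) := Finite.of_injective _ DFunLike.coe_injective
  have h0 : Nat.card (Cfsg.Inn L) = Nat.card L := (Nat.card_congr (MonoidHom.ofInjective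
    ((injective_iff_map_eq_one _).2 fun x hx => by
      rw [← mem_bot, ← hZ, mem_center_iff]
      intro y
      exact (mul_inv_eq_iff_eq_mul.1 (DFunLike.congr_fun hx y)).symm)).toEquiv).symm
  have h1 : Nat.card (Cfsg.Out L) = 6 := Nat.eq_of_mul_eq_mul_right (Nat.card_pos (α := L))
    (by rw [← hL, ← h0]; exact (Cfsg.Inn L).index_mul_card)
  have k : ∀ A : Subgroup (MulAut L), Cfsg.Inn L ≤ A → Nat.card A = 2 * Nat.card L →
      ∃ P : Sylow 2 (Cfsg.Out L), P.1.comap (QuotientGroup.mk' _) = A := by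
    intro A h2 h3
    have h4 := comap_map_eq_self (f := QuotientGroup.mk' (Cfsg.Inn L))
      ((QuotientGroup.ker_mk' _).le.trans h2)
    have h5 : (A.map (QuotientGroup.mk' (Cfsg.Inn L))).index = 3 := by
      rw [← index_comap_of_surjective _ (QuotientGroup.mk'_surjective _), h4]
      refine Nat.eq_of_mul_eq_mul_right (Nat.card_pos (α := A)) ?_
      rw [index_mul_card, hL, h3]; ring
    have h6 := (A.map (QuotientGroup.mk' (Cfsg.Inn L))).index_mul_card
    rw [h5, h1] at h6
    have h7 : IsPGroup 2 (A.map (QuotientGroup.mk' (Cfsg.Inn L))) := .of_card (n := 1) (by omega)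
    exact ⟨h7.toSylow (by rw [h5]; norm_num), h4⟩
  obtain ⟨A, a1, ⟨a2⟩⟩ := exists_emb N cN e
  obtain ⟨B, b1, ⟨b2⟩⟩ := exists_emb M cM f
  obtain ⟨P, rfl⟩ := k A a1 (by
    rw [← Nat.card_congr a2.toEquiv, ← N.index_mul_card, hN, Nat.card_congr e.toEquiv])
  obtain ⟨Q, rfl⟩ := k B b1 (by
    rw [← Nat.card_congr b2.toEquiv, ← M.index_mul_card, hM, Nat.card_congr f.toEquiv])
  obtain ⟨g, rfl⟩ := MulAction.exists_smul_eq (Cfsg.Out L) P Q
  obtain ⟨g, rfl⟩ := QuotientGroup.mk'_surjective _ g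
  refine ⟨a2.trans <| ((MulAut.conj g).subgroupMap _).trans <|
    (MulEquiv.subgroupCongr ?_).trans b2.symm⟩
  ext y
  refine mem_map_equiv.trans ?_
  rw [mem_comap, mem_comap, Sylow.coe_subgroup_smul,
    mem_pointwise_smul_iff_inv_smul_mem]
  simp

namespace On

/-- The group `L₃(7)`. -/
abbrev L37 : Type := Matrix.ProjectiveSpecialLinearGroup (Fin 3) (ZMod 7)

instance : Finite L37 := Nat.finite_of_card_ne_zero (by rw [L37I.card]; norm_num)

theorem aut_L37 : Nat.card (MulAut L37) = 6 * Nat.card L37 := by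
  have : Fact (Nat.Prime 7) := ⟨by norm_num⟩
  have h2 := H26.card_units_mul_card_sl (ι := Fin 3) (R := ZMod 7)
  rw [H26.card_gl_fin, Nat.card_units] at h2
  simp only [Nat.card_zmod, Fin.prod_univ_three] at h2
  rw [S0813.result 7 1 le_rfl (by simp) 3 (by norm_num) (by norm_num), H26.card_pgl_eq_card_sl,
    L37I.card]
  generalize Nat.card (Matrix.SpecialLinearGroup (Fin 3) (ZMod 7)) = m at h2 ⊢
  norm_num at h2 ⊢
  omega

theorem center_L37 : center L37 = ⊥ := by
  have := ((MulEquiv.subgroupCongr L37I.top).trans topEquiv).symm.isSimpleGroup_congr.2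
    (L37sM.simple_card L37I.sat L37I.ne).1
  refine (normal_of_characteristic (center L37)).eq_bot_or_eq_top.resolve_right fun h => ?_
  let _ := Group.commGroupOfCenterEqTop h
  exact absurd (L37I.card ▸ IsSimpleGroup.prime_card (α := L37)) (by norm_num)

theorem cent_L37 {H : Subgroup Γ} (N : Subgroup H) [N.Normal] (hN : N.index = 2) (e : N ≃* L37) :
    centralizer (N : Set H) = ⊥ := by
  refine eq_bot_iff.2 fun c hc => by_contra fun h1 => ?_
  have h2 : (⟨c * c, mul_self_mem_of_index_two hN c⟩ : N) = 1 := e.injective (by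
    rw [map_one, ← mem_bot, ← center_L37, mem_center_iff]
    intro y
    obtain ⟨y, rfl⟩ := e.surjective y
    rw [← map_mul, ← map_mul]
    exact congrArg e (Subtype.ext (mul_mem hc hc _ y.2)))
  have h3 := card_le_of_le (show N.map H.subtype ≤ centralizer {(c : Γ)} by
    rintro _ ⟨y, hy, rfl⟩
    exact mem_centralizer_singleton_iff.2 (congrArg Subtype.val (hc y hy)))
  rw [card_cent_inv (congrArg (fun y : N => ((y : H) : Γ)) h2) fun h => h1 (Subtype.ext h),
    card_map_of_injective H.subtype_injective, Nat.card_congr e.toEquiv, L37I.card] at h3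
  omega

/-- The subgroups `L₃(7):2` are conjugate under the automorphism group. -/
theorem exists_map_eq {H : Subgroup Γ} (N : Subgroup H) [N.Normal] (hN : N.index = 2)
    (e : N ≃* L37) : ∃ α : MulAut Γ, H.map α.toMonoidHom = H1 := by
  obtain ⟨M, _, hM, ⟨f⟩⟩ := ONL.main
  obtain ⟨ψ⟩ := iso_of_out aut_L37 center_L37 M hM (cent_L37 M hM f) f N hN (cent_L37 N hN e) e
  have g6 : gen ν 6 = H1 := (gen_eq_wgen _ _).trans H1_eq.symm
  have hθ : Function.Injective (H.subtype.comp ψ.toMonoidHom) :=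
    H.subtype_injective.comp ψ.injective
  have c : ∀ i, 1 ≤ i → i ≤ 6 → (subT H1 ν i : Γ) = ν i := fun i a b =>
    subT_coe (g6 ▸ mem_gen ν a b)
  obtain ⟨ω, hω⟩ := exists_ω
  obtain ⟨x, β, -, h⟩ := (good ((sat_subT g6.le (by decide) sat1).map
    (H.subtype.comp ψ.toMonoidHom))
    (fun h => a_ne (c 1 (by norm_num) (by norm_num) ▸
      congrArg Subtype.val ((map_eq_one_iff _ hθ).1 h)))
    (fun h => f_ne (c 6 (by norm_num) (by norm_num) ▸
      congrArg Subtype.val ((map_eq_one_iff _ hθ).1 h)))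
    (fun h => af_ne (c 1 (by norm_num) (by norm_num) ▸ c 6 (by norm_num) (by norm_num) ▸
      congrArg Subtype.val ((map_eq_one_iff _ hθ).1 ((map_mul _ _ _).trans h))))).aut hω
  refine ⟨β⁻¹ * MulAut.conj x, ?_⟩
  have h1 : H = (gen (subT H1 ν) 6).map (H.subtype.comp ψ.toMonoidHom) := by
    rw [gen_subT g6, ← map_map, map_top_of_surjective _ ψ.surjective, ← MonoidHom.range_eq_map,
      range_subtype]
  rw [h1, map_gen, map_gen]
  refine (gen_congr fun i hi => ?_).trans g6
  exact (congrArg β.symm (h i (by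
    obtain ⟨a, b⟩ := hi
    interval_cases i <;> simp))).trans (β.symm_apply_apply _)

theorem orbs : ∀ p ∈ [(32, 6384), (15, 5586), (1, 58653), (10, 52136)], p.1 < 122760 ∧
    orbB 122760 ONM.E ONM.code [[1], [2], [3], [4], [5], [6]] p.1 p.2 = true := by decide +kernel

/-- The rank five action. -/
theorem rank5 {G : Type*} [Group G] (ε : G ≃* Γ) (H : Subgroup G) (N : Subgroup H) [N.Normal]
    (hN : N.index = 2) (e : N ≃* L37) : H.index = 122760 ∧ ∃ q₁ q₂ q₃ q₄ : G ⧸ H,
      (MulAction.orbit H q₁).ncard = 6384 ∧ (MulAction.orbit H q₂).ncard = 5586 ∧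
      (MulAction.orbit H q₃).ncard = 58653 ∧ (MulAction.orbit H q₄).ncard = 52136 := by
  have := (inferInstance : N.Normal).map (ε.subgroupMap H).toMonoidHom (ε.subgroupMap H).surjective
  obtain ⟨α, hα⟩ := exists_map_eq (N.map (ε.subgroupMap H).toMonoidHom)
    ((index_map_equiv N (ε.subgroupMap H)).trans hN) (((ε.subgroupMap H).subgroupMap N).symm.trans e)
  have h1 : H.map (ε.trans α).toMonoidHom = H1 := (map_map _ _ _).symm.trans hα
  have act : CosetAct (ONM.φ.comp (ε.trans α).toMonoidHom) H ⟨0, by norm_num⟩ :=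
    ⟨fun y => by
      rw [MonoidHom.comp_apply, ← ONM.act.stab,
        ← mem_map_iff_mem (f := (ε.trans α).toMonoidHom) (ε.trans α).injective, h1], fun b =>
      let ⟨y, hy⟩ := ONM.act.trans b
      ⟨(ε.trans α).symm y, by simpa using hy⟩⟩
  obtain ⟨s, -, hs⟩ := act.exists_orbits
  have k : ∀ p ∈ [(32, 6384), (15, 5586), (1, 58653), (10, 52136)],
      ∃ q : G ⧸ H, (MulAction.orbit H q).ncard = p.2 := fun p hp =>
    ⟨_, (hs H ⟨p.1, (orbs p hp).1⟩).2.trans (by
      rw [← map_map, h1, ONM.model.map_wgen (by decide)]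
      exact ncard_of_orbB ONM.m_hn ONM.E_ok _ (orbs p hp).2)⟩
  simp only [List.forall_mem_cons] at k
  obtain ⟨⟨q₁, k1⟩, ⟨q₂, k2⟩, ⟨q₃, k3⟩, ⟨q₄, k4⟩, -⟩ := k
  exact ⟨by rw [act.index]; simp, q₁, q₂, q₃, q₄, k1, k2, k3, k4⟩

end On

end Cfsg.Agent.H59
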