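import Mathlib
import Cfsg.Agent.H59.PM
import Cfsg.Agent.H66.ONK

/-!
# Finite facts on the perfect extensions `4·L₃(4)`
-/

set_option autoImplicit false
set_option maxRecDepth 100000
set_option linter.unusedSectionVars false

namespace Cfsg.Agent.H59.St

open Cfsg.Agent.H44 Cfsg.Agent.H66 Cfsg.Agent.H66.ON Subgroup

variable {X : Type*} [Group X]

/-- Letters: `0`, `13` unknown, `14 = x`, `15 = x₂`, `16 = U`, `17 - 20` generators of `S`. -/
noncomputable def W0 (s s' : List ℕ) : List (List ℕ) :=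
  [s, [1], [2], [3], [4], [5], [6], [7], [8], [9], [10], [11], [12], s', XW,
    [1, 3, 1, 3].flatMap (nth [] WS), [1, 3, 4, 2].flatMap (nth [] WS), nth [] WS 1, nth [] WS 2,
    nth [] WS 3, nth [] WS 4]

/-- The named elements. -/
noncomputable def c (g : ℕ → X) : ℕ → X := wt g (W0 [] [])

/-- The named elements and two unknowns. -/
noncomputable def vz (g : ℕ → X) (m m' : X) (i : ℕ) : X :=
  if i = 0 then m else if i = 13 then m' else c g i

theorem wt_W0 (g : ℕ → X) (s s' : List ℕ) : wt g (W0 s s') = vz g (ev g s) (ev g s') := by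
  funext i
  by_cases h : i < 21
  · interval_cases i <;> rfl
  · obtain ⟨j, rfl⟩ := Nat.exists_eq_add_of_le' (not_lt.1 h)
    rfl

/-- Atomic statements. -/
inductive Fm
  | e (a b : List ℕ)
  | l (a b : List ℕ)
  | n (a b : List ℕ)

/-- The meaning. -/
def Fm.P (ν : ℕ → X) : Fm → Prop
  | .e a b => ev ν a = ev ν b
  | .l a b => (ev ν a)⁻¹ * ev ν b ∈ center X
  | .n a b => (ev ν a)⁻¹ * ev ν b ∉ center X

/-- Equality modulo the centre. -/
noncomputable def eqL (W : List (List ℕ)) (a b : List ℕ) : Bool :=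
  eqChk (stp TL1.T) ts [[]] (W.map (List.filter (Nat.ble · 6))) a b

/-- The test. -/
noncomputable def Fm.t (N : List ℕ) (W : List (List ℕ)) (f : Fm) : Bool :=
  Fm.rec (motive := fun _ => Bool) (fun a b => eqChk (stp TU) ts (Ns N) W a b)
    (fun a b => eqL W a b) (fun a b => bN (eqL W a b)) f

/-- The unknowns occur in the same way on both sides. -/
def Fm.ok : Fm → Bool
  | .e a b => a.filter (fun i => i == 0 || i == 13) == b.filter (fun i => i == 0 || i == 13)
  | _ => true

/-- One of the clauses holds for every element of the Sylow subgroup. -/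
noncomputable def chk (N : List ℕ) (α : List (List ℕ)) (D : List (List Fm)) : Bool :=
  allN (fun p => let s := (TSb.T.wd p).flatMap (nth [] WS)
    H59.anyL (allL (Fm.t N (W0 s (s.flatMap (nth [] α))))) D) 64

/-- The map acts on the letters by the table. -/
def Ex (g : ℕ → X) (φ : X ≃* X) (α : List (List ℕ)) : Prop :=
  ∀ y, 1 ≤ y → y ≤ 12 → φ (g y) = ev g (nth [] α y)

theorem Ex.ev {g : ℕ → X} {φ : X ≃* X} {α : List (List ℕ)} (h : Ex g φ α) {l : List ℕ}
    (hl : lettersIn 12 l = true) : φ (ev g l) = ev g (l.flatMap (nth [] α)) := by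
  rw [H59.ev_flatMap]
  exact (map_ev φ.toMonoidHom _ _).trans (ev_congr fun x hx =>
    h x (lettersIn_iff.1 hl x hx).1 (lettersIn_iff.1 hl x hx).2)

theorem ex_refl (g : ℕ → X) : Ex g (MulEquiv.refl X) W12 := fun y a b => by
  interval_cases y <;> exact (ev_single _ _).symm

theorem map_cen (φ : X ≃* X) {z : X} (hz : z ∈ center X) : φ z ∈ center X :=
  mem_center_iff.2 fun y => by
    rw [← φ.apply_symm_apply y, ← map_mul, ← map_mul, mem_center_iff.1 hz]

theorem ev_mul_cen (ν z : ℕ → X) (hz : ∀ i, z i ∈ center X) (l : List ℕ) :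
    ev (fun i => ν i * z i) l = ev ν l * ev z l := by
  induction l with
  | nil => simp [ev_nil]
  | cons i l ih => rw [ev_cons, ev_cons, ev_cons, ih, mul_assoc, ← mul_assoc (z i),
      ← mem_center_iff.1 (hz i), mul_assoc, mul_assoc]

theorem ev_filter (ν : ℕ → X) (p : ℕ → Bool) (l : List ℕ) (h : ∀ i ∈ l, p i = false → ν i = 1) :
    ev ν (l.filter p) = ev ν l := by
  induction l with
  | nil => rfl
  | cons i l ih =>
    have := ih fun j hj => h j (List.mem_cons_of_mem _ hj)
    cases e : p i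
    · rw [List.filter_cons_of_neg (by simp [e]), ev_cons, h i List.mem_cons_self e, one_mul, this]
    · rw [List.filter_cons_of_pos e, ev_cons, ev_cons, this]

theorem nth_filter (p : ℕ → Bool) (W : List (List ℕ)) (i : ℕ) :
    nth [] (W.map (List.filter p)) i = (nth [] W i).filter p := by
  induction W generalizing i with
  | nil => rfl
  | cons w W ih => cases i; exacts [rfl, ih _]

theorem Fm.P.cen {ν z : ℕ → X} (hz : ∀ i, z i ∈ center X)
    (h1 : ∀ i, (i == 0 || i == 13) = false → z i = 1) {f : Fm} (ho : f.ok = true) (h : f.P ν) :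
    f.P fun i => ν i * z i := by
  have k : ∀ a b, (ev (fun i => ν i * z i) a)⁻¹ * ev (fun i => ν i * z i) b ∈ center X ↔
      (ev ν a)⁻¹ * ev ν b ∈ center X := fun a b => by
    rw [ev_mul_cen _ _ hz, ev_mul_cen _ _ hz, mul_inv_rev, mul_assoc,
      mul_mem_cancel_left (inv_mem (ev_mem fun i _ => hz i)), ← mul_assoc,
      mul_mem_cancel_right (ev_mem fun i _ => hz i)]
  cases f with
  | e a b =>
    change _ = _
    rw [ev_mul_cen _ _ hz, ev_mul_cen _ _ hz, show ev ν a = _ from h,
      ← ev_filter z _ a fun i _ => h1 i, beq_iff_eq.1 ho, ev_filter z _ b fun i _ => h1 i]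
  | l a b => exact (k a b).2 h
  | n a b => exact fun e => h ((k a b).1 e)

/-- The standard letters. -/
structure XS (g : ℕ → X) (N : List ℕ) : Prop where
  hX : XH X
  hg : XD g
  h7 : g 7 ^ 2 = 1
  h9 : g 9 ^ 2 ≠ 1
  hW : WP g N

namespace XS

variable {g : ℕ → X} {N : List ℕ} (h : XS g N)
include h

theorem eqL_iff {W : List (List ℕ)} (hW : W.all (lettersIn 12) = true) (a b : List ℕ) :
    eqL W a b = true ↔ (ev (wt g W) a)⁻¹ * ev (wt g W) b ∈ center X := by
  have hl := h.hg.ld h.hX
  have := hl.fin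
  obtain ⟨d, hd⟩ := hl.act1
  have h6 : (W.map (List.filter (Nat.ble · 6))).all (lettersIn 6) = true := by
    simp only [List.all_map, List.all_eq_true, Function.comp_apply, lettersIn_iff, List.mem_filter,
      Nat.ble_eq] at hW ⊢
    exact fun l hl x hx => ⟨(hW l hl x hx.1).1, hx.2⟩
  have e : ∀ a, ((ev (wt g W) a : X) : X ⧸ center X) =
      ev (wt (fun i => (g i : X ⧸ center X)) (W.map (List.filter (Nat.ble · 6)))) a := fun a => by
    refine (map_ev (QuotientGroup.mk' _) _ _).trans (ev_congr fun i _ => ?_)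
    rw [wt, wt, nth_filter, ev_filter]
    · exact map_ev _ _ _
    · intro j hj h1
      have h2 := lettersIn_iff.1 (lettersIn_nth hW i) j hj
      have h3 : ¬ j ≤ 6 := fun e => by
        rw [Nat.ble_eq_true_of_le e] at h1; exact Bool.noConfusion h1
      have k : ∀ c ∈ [7, 9, 11], g c ∈ center X ∧ g (c + 1) ∈ center X := fun c hc =>
        ⟨(h.hg.central hc).1, (h.hg.central hc).2 ▸ inv_mem (h.hg.central hc).1⟩
      rw [QuotientGroup.eq_one_iff]
      obtain ⟨-, h2⟩ := h2
      rw [not_le] at h3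
      interval_cases j
      exacts [(k 7 (by decide)).1, (k 7 (by decide)).2, (k 9 (by decide)).1, (k 9 (by decide)).2,
        (k 11 (by decide)).1, (k 11 (by decide)).2]
  rw [← QuotientGroup.eq, e, e]
  refine ⟨hd.eq_of hl.base (by decide) (by decide) (by simp [Sat, ev_nil]) h6, fun e' => ?_⟩
  unfold eqL eqChk
  refine allL_iff.2 fun t ht => ?_
  have hq := (hd.run_spec (List.all_eq_true.1 (by decide : ts.all (lettersIn 6) = true) t ht) 0
    hd.pos).1
  have ha := hd.runW_spec h6 a _ hq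
  have hb := hd.runW_spec h6 b _ hq
  simp only [H70.frc_eq]
  exact ON.anyL_iff.2 ⟨[], by simp, Nat.beq_eq ▸ hd.inj hl.top hl.idxK.1 _ hb.1 _ ha.1
    (by rw [← ha.2, ← hb.2, e'])⟩

theorem test {W : List (List ℕ)} (hW : W.all (lettersIn 12) = true) {f : Fm}
    (e : f.t N W = true) : f.P (wt g W) := by
  cases f with
  | e a b =>
    exact (actU h.hW.sat).elim fun _ hc => hc.eq_of h.hW.base (by decide) h.hW.lN.1 h.hW.satN hW e
  | l a b => exact (h.eqL_iff hW a b).1 e
  | n a b =>
    exact fun e' => Bool.noConfusion (((h.eqL_iff hW a b).2 e').symm.trans (bN_iff.1 e))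

theorem facts {F : List Fm} (e : allL (Fm.t N (W0 [] [])) F = true) : ∀ f ∈ F, f.P (c g) :=
  fun f hf => h.test (by decide) (allL_iff.1 e f hf)

theorem all {α : List (List ℕ)} (hα : α.all (lettersIn 12) = true) {φ : X ≃* X} (hφ : Ex g φ α)
    {D : List (List Fm)} (hD : D.all (List.all · Fm.ok) = true) (e : chk N α D = true) {m : X}
    (hm : (m * c g 14)⁻¹ * (c g 14 * m) ∈ center X) : ∃ d ∈ D, ∀ f ∈ d, f.P (vz g m (φ m)) := by
  have hl := h.hg.ld h.hX
  have := hl.fin
  have h1 := hl.centx (m : X ⧸ center X) (by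
    rw [← h.hg.mk_XW, mul_inv_eq_iff_eq_mul, ← QuotientGroup.mk_mul, ← QuotientGroup.mk_mul]
    exact (QuotientGroup.eq.2 hm).symm)
  obtain ⟨p, hp, e1⟩ := exists_wd (T := TSb.T) (TSb.names hl.satS) TSb.words _ h1
  obtain ⟨d, hd, e2⟩ := H59.anyL_iff.1 (allN_iff.1 e p hp)
  have l12 : lettersIn 12 ((TSb.T.wd p).flatMap (nth [] WS)) = true :=
    LD.lettersIn_flatMap (by decide) _
  rw [show ev (wt _ WS) _ = _ from (H59.ev_flatMap _ _ _).symm] at e1
  generalize (TSb.T.wd p).flatMap (nth [] WS) = s at e1 e2 l12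
  have h2 : (ev g s)⁻¹ * m ∈ center X :=
    QuotientGroup.eq.1 ((map_ev (QuotientGroup.mk' _) g s).trans e1.symm)
  refine ⟨d, hd, fun f hf => ?_⟩
  have h3 := h.test (by
    simp only [W0, List.all_cons, l12, LD.lettersIn_flatMap hα, Bool.true_and]; decide)
    (allL_iff.1 e2 f hf)
  rw [wt_W0, ← hφ.ev l12] at h3
  convert h3.cen (z := fun i => if i = 0 then (ev g s)⁻¹ * m else if i = 13 then
    φ ((ev g s)⁻¹ * m) else 1) (fun i => ?_) (fun i hi => ?_)
    (List.all_eq_true.1 (List.all_eq_true.1 hD d hd) f hf) using 2 with i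
  · unfold vz
    split_ifs <;> simp
  · split_ifs
    exacts [h2, map_cen φ h2, one_mem _]
  · simp only [Bool.or_eq_false_iff, beq_eq_false_iff_ne] at hi
    rw [if_neg hi.1, if_neg hi.2]

end XS

end Cfsg.Agent.H59.St
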