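import Mathlib
import Cfsg.Agent.H59.StA

/-!
# Finite facts on the perfect extensions `4·L₃(4)`, in readable form
-/

set_option autoImplicit false
set_option maxRecDepth 100000
set_option linter.unusedSectionVars false

namespace Cfsg.Agent.H59.St

open Cfsg.Agent.H44 Cfsg.Agent.H66 Cfsg.Agent.H66.ON Subgroup

variable {X : Type*} [Group X]

theorem c9 (g : ℕ → X) : c g 9 = g 9 := ev_single _ _

theorem l12 {α : List (List ℕ)} (hα : α ∈ [W12, A1, A2, A3]) : α.all (lettersIn 12) = true := by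
  revert α; decide

theorem cen_of_comm {p q : X} (e : p * q = q * p) : (p * q)⁻¹ * (q * p) ∈ center X := by
  rw [e, inv_mul_cancel]; exact one_mem _

namespace XS

variable {g : ℕ → X} {N : List ℕ} (h : XS g N)
include h

local notation "y" => c g 9
local notation "x" => c g 14
local notation "x₂" => c g 15
local notation "U" => c g 16
local notation "n" => c g 17

theorem yZ : y ∈ center X := c9 g ▸ (h.hg.central (c := 9) (by decide)).1

theorem yy : y * y ≠ 1 := by rw [c9, ← sq]; exact h.h9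

theorem yy' (p : X) : p ≠ y * (y * p) := fun e => h.yy (by rwa [← mul_assoc, right_eq_mul] at e)

theorem cases {z : X} (hz : z ∈ center X) : z = 1 ∨ z = y ∨ z = y * y ∨ z = y⁻¹ :=
  h.hX.mem_cases h.yZ (by rw [sq]; exact h.yy) hz

theorem y4 : y * y * (y * y) = 1 := by
  simpa only [pow_succ, pow_zero, one_mul, mul_assoc] using h.hX.pow4 h.yZ

theorem sqZ {z : X} (hz : z ∈ center X) : z * z = 1 ∨ z * z = y * y := by
  rcases h.cases hz with e | e | e | e <;> rw [e]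
  exacts [.inl (one_mul _), .inr rfl, .inl h.y4,
    .inr (by rw [← mul_inv_rev]; exact inv_eq_of_mul_eq_one_right h.y4)]

theorem invZ {z : X} (hz : z ∈ center X) (e2 : z * z = 1) : z = 1 ∨ z = y * y := by
  rcases h.cases hz with e | e | e | e
  exacts [.inl e, absurd (e ▸ e2) h.yy, .inr e,
    absurd (by rwa [e, ← mul_inv_rev, inv_eq_one] at e2) h.yy]

theorem both {p : List ℕ → Bool} (e : (p [7] && p [9, 12]) = true) : p N = true := by
  have := h.hW.okN
  simp only [List.mem_cons, List.not_mem_nil, or_false, Bool.and_eq_true] at this e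
  rcases this with rfl | rfl
  exacts [e.1, e.2]

theorem f1 : x * x = 1 ∧ x ∉ center X ∧ n * n = 1 ∧ n * x = x * (y * y) * n ∧
    g 3 * (g 3 * g 3) = 1 ∧ g 3 * (g 3 * (g 3 * g 3)) ∉ center X := by
  have := h.facts (F := [.e [14, 14] [], .n [] [14], .e [17, 17] [], .e [17, 14] [14, 9, 9, 17],
    .e [3, 3, 3] [], .n [] [3, 3, 3, 3]]) (h.both (p := fun N => allL (Fm.t N _) _) (by decide +kernel))
  simpa [Fm.P, ev_cons, ev_nil, mul_assoc, show c g 3 = g 3 from ev_single _ _] using this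

theorem xa : x ≠ y * y := fun e => h.f1.2.1 (e ▸ mul_mem h.yZ h.yZ)

theorem x1 : x ≠ 1 := fun e => h.f1.2.1 (e ▸ one_mem _)

theorem conjx {p : X} (h1 : p * p ∈ center X) (h2 : p ∉ center X) :
    ∃ l, (l * p * l⁻¹)⁻¹ * x ∈ center X := by
  have o2 : ∀ q : X, q * q ∈ center X → q ∉ center X → orderOf (q : X ⧸ center X) = 2 :=
    fun q a b => orderOf_eq_prime (by rwa [pow_two, ← QuotientGroup.mk_mul,
      QuotientGroup.eq_one_iff]) (by rwa [Ne, QuotientGroup.eq_one_iff])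
  obtain ⟨k, hk⟩ := isConj_iff.1 (h.hX.inv _ _ (o2 p h1 h2)
    (o2 _ (h.f1.1 ▸ one_mem _) h.f1.2.1))
  obtain ⟨k, rfl⟩ := QuotientGroup.mk_surjective k
  exact ⟨k, QuotientGroup.eq.1 hk⟩

theorem f0 {p : X} (h1 : p * p = 1) (h2 : p ≠ 1) (h3 : p ≠ y * y) : ∃ l, l * p * l⁻¹ = x :=
  h.hg.f0 h.hX h.h9 h.hW h1 h2 (c9 g ▸ h3)

theorem ty (θ : X ≃* X) : ∃ k, ∃ α ∈ [W12, A1, A2, A3], Ex g (θ.trans (MulAut.conj k)) α := by
  by_cases e : ∀ k : X, ¬ ∀ p, θ p = k * p * k⁻¹
  · obtain ⟨k, α, hα, e⟩ := h.hg.exists_aut h.hX h.h7 h.h9 θ e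
    exact ⟨k, α, List.mem_cons_of_mem _ hα, e⟩
  · push Not at e
    obtain ⟨k, e⟩ := e
    refine ⟨k⁻¹, W12, by simp, fun i a b => (ex_refl g i a b).symm ▸ ?_⟩
    simp [e, mul_assoc]

theorem ext {φ ψ : X →* X} (e : ∀ i, 1 ≤ i → i ≤ 6 → φ (g i) = ψ (g i)) (p : X) : φ p = ψ p :=
  (gen_le.2 e : gen g 6 ≤ φ.eqLocus ψ) (h.hg.top ▸ mem_top p)

variable {φ : X ≃* X} {α : List (List ℕ)}

theorem ex0 (hφ : Ex g φ W12) (p : X) : φ p = p :=
  h.ext (φ := φ) (ψ := MonoidHom.id X)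
    (fun i a b => (hφ i a (by omega)).trans (ex_refl g i a (by omega)).symm) p

theorem ex2 (hα : α ∈ [W12, A1, A2, A3]) (hφ : Ex g φ α) (p : X) : φ (φ p) = p :=
  h.ext (φ := (φ : X →* X).comp φ) (ψ := MonoidHom.id X) (fun i a b => by
    change φ (φ _) = g i
    rw [hφ i a (by omega), hφ.ev (lettersIn_nth (l12 hα) i), (by decide : ∀ α ∈ [W12, A1, A2, A3],
      ∀ i < 7, 1 ≤ i → (nth [] α i).flatMap (nth [] α) = [i]) α hα i (by omega) a, ev_single]) p

theorem ex3 (hα : α ∈ [W12, A1, A2, A3]) (hφ : Ex g φ α) : φ (g 3) = g 3 := by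
  rw [hφ 3 (by norm_num) (by norm_num),
    (by decide : ∀ α ∈ [W12, A1, A2, A3], nth [] α 3 = [3]) α hα, ev_single]

theorem img (hα : α ∈ [W12, A1, A2, A3]) (hφ : Ex g φ α) (i : ℕ) (b : List ℕ)
    (e : Fm.t N (W0 ((nth [] (W0 [] []) i).flatMap (nth [] α)) []) (.e [0] b) = true) :
    φ (c g i) = ev (vz g (φ (c g i)) 1) b := by
  have := h.test (by
    simp only [W0, List.all_cons, LD.lettersIn_flatMap (l12 hα), Bool.true_and]; decide) e
  rw [wt_W0, ← hφ.ev (lettersIn_nth (by decide) i)] at this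
  exact (ev_single (vz g _ _) 0).symm.trans this

theorem exx (hα : α ∈ [W12, A1, A2, A3]) (hφ : Ex g φ α) : φ x = x := by
  simpa [vz, ev_single] using h.img hα hφ 14 [14] ((by decide +kernel : ∀ N ∈ [[7], [9, 12]],
    ∀ α ∈ [W12, A1, A2, A3], Fm.t N (W0 ((nth [] (W0 [] []) 14).flatMap (nth [] α)) [])
      (.e [0] [14]) = true) N h.hW.okN α hα)

theorem exy (φ : X ≃* X) : φ y = y ∨ φ y = y⁻¹ := by
  have k : φ y * φ y ≠ 1 := by rw [← map_mul, map_ne_one_iff _ φ.injective]; exact h.yy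
  rcases h.cases (map_cen φ h.yZ) with e | e | e | e
  exacts [absurd (by rw [e, one_mul]) k, .inl e, absurd (e ▸ h.y4) k, .inr e]

theorem k1 (hα : α ∈ [A1, A2, A3]) (hφ : Ex g φ α) (hy : φ y ≠ y) :
    ∃ p q r, φ p = p ∧ φ q = q ∧ p * p * (q * q) = x ∧ φ r = r * x := by
  have k : ∀ N ∈ [[7], [9, 12]], ∀ α ∈ [A1, A2, A3],
      eqChk (stp TU) ts (Ns N) W12 ([9].flatMap (nth [] α)) [9] = true ∨ ∃ p ∈
        [([], [1, 5, 1, 5, 2, 6, 1, 4, 6, 9], [5, 1, 1, 5, 1, 6, 1]),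
          ([3], [1, 3, 5, 2, 6, 1, 4, 5, 2, 9], [1, 5, 2, 6, 1, 6, 1, 9]),
          ([3], [1, 3, 5, 2, 6, 1, 4, 5, 2], [1, 5, 2, 6, 1, 6, 1]),
          ([5, 1, 6, 1, 4, 6, 1, 9], [1, 4, 6, 2, 6, 1, 3, 6, 2], [1, 1, 5, 2, 4, 6, 2, 3])],
        lettersIn 12 p.1 = true ∧ lettersIn 12 p.2.1 = true ∧ lettersIn 12 p.2.2 = true ∧
        eqChk (stp TU) ts (Ns N) W12 (p.1.flatMap (nth [] α)) p.1 = true ∧
        eqChk (stp TU) ts (Ns N) W12 (p.2.1.flatMap (nth [] α)) p.2.1 = true ∧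
        eqChk (stp TU) ts (Ns N) W12 (p.1 ++ p.1 ++ (p.2.1 ++ p.2.1)) XW = true ∧
        eqChk (stp TU) ts (Ns N) W12 (p.2.2.flatMap (nth [] α)) (p.2.2 ++ XW) = true := by
    decide +kernel
  have l := LD.lettersIn_flatMap (l12 (List.mem_cons_of_mem _ hα))
  rcases k N h.hW.okN α hα with e | ⟨⟨a, b, d⟩, -, la, lb, ld, c1, c2, c3, c4⟩
  · exact absurd ((hφ.ev (l := [9]) rfl).trans (h.hW.eqM (l _) rfl e)) hy
  · refine ⟨ev g a, ev g b, ev g d, (hφ.ev la).trans (h.hW.eqM (l _) la c1),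
      (hφ.ev lb).trans (h.hW.eqM (l _) lb c2), ?_, (hφ.ev ld).trans ?_⟩
    · rw [← ev_append, ← ev_append, ← ev_append]
      exact h.hW.eqM (LD.lettersIn_append (LD.lettersIn_append la la)
        (LD.lettersIn_append lb lb)) (by decide) c3
    · exact (h.hW.eqM (l _) (LD.lettersIn_append ld (by decide)) c4).trans (ev_append _ _ _)

theorem ysq : ∃ p q, y = p * p * (q * q) ∧ p * x = x * p ∧ q * x = x * q := by
  have := h.facts (F := [.e [9] [18, 19, 18, 19, 19, 17, 20, 18, 19, 17, 20, 18],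
    .e [18, 19, 14] [14, 18, 19], .e [19, 17, 20, 18, 14] [14, 19, 17, 20, 18]])
    (h.both (p := fun N => allL (Fm.t N _) _) (by decide +kernel))
  exact ⟨c g 18 * c g 19, c g 19 * (c g 17 * (c g 20 * c g 18)),
    by simpa [Fm.P, ev_cons, ev_nil, mul_assoc] using this⟩

theorem all0 {D : List (List Fm)} (hD : D.all (List.all · Fm.ok) = true) (e : chk N W12 D = true)
    {m : X} (hm : (m * x)⁻¹ * (x * m) ∈ center X) : ∃ d ∈ D, ∀ f ∈ d, f.P (vz g m m) :=
  h.all (by decide) (ex_refl g) hD e hm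

theorem root {w : X} (hw : (w * w)⁻¹ * x ∈ center X) : (w * x)⁻¹ * (x * w) ∈ center X := by
  refine cen_of_comm ?_
  rw [← mul_inv_cancel_left (w * w) x, mul_assoc _ _ w, ← mem_center_iff.1 hw]
  simp only [mul_assoc]

theorem F1 {w : X} (hw : (w * w)⁻¹ * x ∈ center X) : ∃ d, d * x = x * d ∧ d * w ≠ w * d := by
  have := h.all0 (D := [[.n [0, 0] [14]], [.e [17, 18, 14] [14, 17, 18], .n [17, 18, 0] [0, 17, 18]]])
    (by decide) (h.both (p := fun N => chk N _ _) (by decide +kernel)) (h.root hw)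
  simp only [List.mem_cons, List.not_mem_nil, or_false, exists_eq_or_imp, forall_eq_or_imp,
    exists_eq_left, forall_eq, Fm.P, ev_cons, ev_nil, vz, mul_one, ← mul_assoc, reduceIte,
    Nat.reduceEqDiff, OfNat.ofNat_ne_zero] at this
  rcases this with e | e
  · exact absurd hw e
  · exact ⟨n * c g 18, by simpa only [mul_assoc] using e.1, fun e' => e.2 (by
      rw [e']; simp [mul_assoc])⟩

theorem F1' {w : X} (hw : (w * w)⁻¹ * x ∈ center X)
    (hd : ∀ d, d * x = x * d → d * w = w * d ∨ d * w = w * x * d) :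
    N = [9, 12] ∧ (U⁻¹ * w ∈ center X ∨ (U * x)⁻¹ * w ∈ center X) := by
  have k : ∀ i, (∃ d ∈ [[Fm.n [17, i, 0] [0, 17, i], .n [17, i, 0] [0, 14, 17, i]],
      [.e [17, i, 0] [0, 9, 9, 17, i]], [.e [17, i, 0] [0, 14, 9, 9, 17, i]]],
      ∀ f ∈ d, f.P (vz g w w)) → i = 18 ∨ i = 19 → False := fun i e hi => by
    have := h.facts (F := [.e [17, 18, 14] [14, 17, 18], .e [17, 19, 14] [14, 17, 19]])
      (h.both (p := fun N => allL (Fm.t N _) _) (by decide +kernel))
    have e1 : vz g w w i = c g i := by rcases hi with rfl | rfl <;> rfl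
    simp only [List.mem_cons, List.not_mem_nil, or_false, exists_eq_or_imp, forall_eq_or_imp,
      exists_eq_left, forall_eq, Fm.P, ev_cons, ev_nil, e1, mul_one, ← mul_assoc] at this e
    simp only [vz, reduceIte, Nat.reduceEqDiff, OfNat.ofNat_ne_zero, mul_assoc _ n (c g i),
      mul_assoc _ y y] at e
    have h1 := hd (n * c g i) (by rcases hi with rfl | rfl <;> simp only [← mul_assoc, this])
    generalize n * c g i = d at e h1
    rcases e with e | e | e <;> rcases h1 with h1 | h1 <;> rw [h1] at e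
    · exact e.1 (by simp)
    · exact e.2 (by simp [mul_assoc])
    · exact h.yy (by simpa using e)
    · exact h.xa (by simpa using e)
    · exact h.xa (by
        rw [mul_left_inj, mul_assoc, left_eq_mul, mul_eq_one_iff_eq_inv] at e
        rw [e]; exact inv_eq_of_mul_eq_one_right h.y4)
    · exact h.yy (by simpa using e)
  have := h.hW.okN
  simp only [List.mem_cons, List.not_mem_nil, or_false] at this
  rcases this with rfl | rfl
  · obtain ⟨d, hd, e⟩ := h.all0 (D := [.n [0, 0] [14]] :: [[.n [17, 19, 0] [0, 17, 19],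
      .n [17, 19, 0] [0, 14, 17, 19]], [.e [17, 19, 0] [0, 9, 9, 17, 19]],
      [.e [17, 19, 0] [0, 14, 9, 9, 17, 19]]]) (by decide) (by decide +kernel) (h.root hw)
    rcases List.mem_cons.1 hd with rfl | hd
    · exact absurd hw (by simpa [Fm.P, ev_cons, ev_nil, vz] using e)
    · exact (k 19 ⟨d, hd, e⟩ (.inr rfl)).elim
  · obtain ⟨d, hd, e⟩ := h.all0 (D := [[.n [0, 0] [14]], [.l [16] [0]], [.l [16, 14] [0]]] ++
      [[.n [17, 18, 0] [0, 17, 18], .n [17, 18, 0] [0, 14, 17, 18]],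
      [.e [17, 18, 0] [0, 9, 9, 17, 18]], [.e [17, 18, 0] [0, 14, 9, 9, 17, 18]]]) (by decide)
      (by decide +kernel) (h.root hw)
    rcases List.mem_append.1 hd with hd | hd
    · simp only [List.mem_cons, List.not_mem_nil, or_false] at hd
      rcases hd with rfl | rfl | rfl
      · exact absurd hw (by simpa [Fm.P, ev_cons, ev_nil, vz] using e)
      · exact ⟨rfl, .inl (by simpa [Fm.P, ev_cons, ev_nil, vz] using e)⟩
      · exact ⟨rfl, .inr (by simpa [Fm.P, ev_cons, ev_nil, vz] using e)⟩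
    · exact (k 18 ⟨d, hd, e⟩ (.inl rfl)).elim

theorem F4 {p : X} (hp : p * x = x * p) : p ^ 4 ∈ center X := by
  simpa [Fm.P, ev_cons, ev_nil, vz, pow_succ, mul_assoc] using h.all0 (D := [[.l [] [0, 0, 0, 0]]])
    (by decide) (h.both (p := fun N => chk N _ _) (by decide +kernel)) (cen_of_comm hp)

end XS

namespace XS

variable {g : ℕ → X} (h : XS g [9, 12]) {φ : X ≃* X} {α : List (List ℕ)}
include h

local notation "y" => c g 9
local notation "x" => c g 14
local notation "x₂" => c g 15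
local notation "U" => c g 16
local notation "n" => c g 17

theorem f2 : x₂ * x₂ = 1 ∧ x * x₂ = x₂ * x ∧ U * U = x ∧ U * x₂ = x₂ * U ∧ n * x₂ = x₂ * n ∧
    x₂ ∉ center X ∧ x⁻¹ * x₂ ∉ center X ∧ (∃ v, v * v = x₂ ∧ v * x = x * v) ∧
    ∃ s, s * x = x * s ∧ s * x₂ = x₂ * (y * y) * s := by
  have := h.facts (F := [.e [15, 15] [], .e [14, 15] [15, 14], .e [16, 16] [14],
    .e [16, 15] [15, 16], .e [17, 15] [15, 17], .n [] [15], .n [14] [15],
    .e [17, 19, 17, 19] [15], .e [17, 19, 14] [14, 17, 19], .e [17, 18, 14] [14, 17, 18],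
    .e [17, 18, 15] [15, 9, 9, 17, 18]]) (by decide +kernel)
  simp only [List.mem_cons, List.not_mem_nil, or_false, forall_eq_or_imp, forall_eq, Fm.P, ev_cons,
    ev_nil, mul_one, inv_one, one_mul] at this
  obtain ⟨a1, a2, a3, a4, a5, a6, a7, a8, a9, a10, a11⟩ := this
  exact ⟨a1, a2, a3, a4, a5, a6, a7, ⟨n * c g 19, by simpa only [mul_assoc] using ⟨a8, a9⟩⟩,
    n * c g 18, by simpa only [mul_assoc] using ⟨a10, a11⟩⟩

theorem ex12 (hα : α ∈ [A1, A2]) (hφ : Ex g φ α) : φ x₂ = x₂ * x := by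
  simpa [vz, ev_cons, ev_nil] using h.img (by clear hφ; revert α; decide) hφ 15 [15, 14]
    ((by decide +kernel : ∀ α ∈ [A1, A2], Fm.t [9, 12]
      (W0 ((nth [] (W0 [] []) 15).flatMap (nth [] α)) []) (.e [0] [15, 14]) = true) α hα)

theorem ex33 (hφ : Ex g φ A3) : φ x₂ = x₂ ∧ φ y ≠ y := by
  refine ⟨by simpa [vz, ev_single] using h.img (by decide) hφ 15 [15] (by decide +kernel),
    fun e => h.yy ?_⟩
  simpa [vz, ev_cons, ev_nil, e] using h.img (by decide) hφ 9 [9, 9, 9] (by decide +kernel)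

theorem F2 {p : X} (hp : p * x = x * p) (h2 : p * p ∈ center X) :
    p ∈ center X ∨ x⁻¹ * p ∈ center X ∨ ∃ d, d * p = p * d ∧ d * x ≠ x * d := by
  obtain ⟨d, hd, e⟩ := h.all0 (D := [[.n [] [0, 0]], [.l [] [0]], [.l [14] [0]]] ++
    [[17], [20], [17, 20, 17], [19, 17, 19], [18, 20, 18], [20, 17, 20]].map fun d =>
      [.e (d ++ [0]) ([0] ++ d), .e (d ++ [14]) ([14, 9, 9] ++ d)]) (by decide) (by decide +kernel)
    (cen_of_comm hp)
  rcases List.mem_append.1 hd with hd | hd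
  · simp only [List.mem_cons, List.not_mem_nil, or_false] at hd
    rcases hd with rfl | rfl | rfl
    · exact absurd h2 (by simpa [Fm.P, ev_cons, ev_nil, vz] using e)
    · exact .inl (by simpa [Fm.P, ev_cons, ev_nil, vz] using e)
    · exact .inr (.inl (by simpa [Fm.P, ev_cons, ev_nil, vz] using e))
  · obtain ⟨d, -, rfl⟩ := List.mem_map.1 hd
    simp only [List.mem_cons, List.not_mem_nil, or_false, forall_eq_or_imp, forall_eq, Fm.P,
      ev_append, ev_cons, ev_nil, mul_one] at e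
    refine .inr (.inr ⟨_, e.1, fun e' => h.yy ?_⟩)
    simpa [vz, e'] using e.2

theorem F5 {p : X} (hp : p * x = x * p) (h2 : p * p = 1) (h3 : p * U = U * p) :
    p ∈ center X ∨ x⁻¹ * p ∈ center X ∨ x₂⁻¹ * p ∈ center X ∨ (x₂ * x)⁻¹ * p ∈ center X := by
  simpa [Fm.P, ev_cons, ev_nil, vz, h2, h3] using h.all0 (D := [[.n [] [0, 0]], [.n [0, 16] [16, 0]],
    [.l [] [0]], [.l [14] [0]], [.l [15] [0]], [.l [15, 14] [0]]]) (by decide) (by decide +kernel)
    (cen_of_comm hp)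

theorem F8 {p : X} (hp : p * x = x * p) : p * x₂ = x₂ * p ∨ p * x₂ = x₂ * (y * y) * p := by
  simpa [Fm.P, ev_cons, ev_nil, vz, mul_assoc] using h.all0 (D := [[.e [0, 15] [15, 0]],
    [.e [0, 15] [15, 9, 9, 0]]]) (by decide) (by decide +kernel) (cen_of_comm hp)

theorem F7 {p : X} (hp : p * x = x * p) (h2 : p * x₂ = x₂ * p) : p * U = U * p := by
  simpa [Fm.P, ev_cons, ev_nil, vz, hp, h2, h.yy'] using
    h.all0 (D := [[.e [0, 14] [14, 9, 9, 0]], [.e [0, 15] [15, 9, 9, 0]], [.e [0, 16] [16, 0]]])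
      (by decide) (by decide +kernel) (cen_of_comm hp)

theorem F6 (hφ : Ex g φ A3) {p : X} (hp : p * x = x * p) : p * x₂ = x₂ * p ↔ p * φ p ∈ center X := by
  have := h.all (by decide) hφ (D := [[.e [0, 14] [14, 9, 9, 0]],
    [.e [0, 15] [15, 0], .l [] [0, 13]], [.e [0, 15] [15, 9, 9, 0], .n [] [0, 13]]])
      (by decide) (by decide +kernel) (cen_of_comm hp)
  simp [Fm.P, ev_cons, ev_nil, vz, hp, h.yy'] at this
  rcases this with e | e
  · exact iff_of_true e.1 e.2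
  · exact iff_of_false (fun e' => h.yy' p (by simpa [e'] using e.1)) e.2

end XS

end Cfsg.Agent.H59.St
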