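import Mathlib
import Cfsg.Agent.H59.SzY
import Cfsg.Agent.H44.M11sM
import Cfsg.Agent.H13.M11Iso
import Cfsg.Prelude.Def_CaseTheorems

/-!
# The Suzuki group: `3`-local subgroups
-/

set_option autoImplicit false
set_option maxRecDepth 200000
set_option linter.style.longLine false

namespace Cfsg.Agent.H59

open Cfsg Cfsg.Agent.H44 Equiv Subgroup
open Cfsg.Agent.H43 hiding allL allL_iff anyL anyL_iff
open scoped commutatorElement

section

variable {G H : Type*} [Group G] [Group H]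

theorem card_orbit [Finite G] (N : Subgroup G) (z : G) :
    {a | ∃ m ∈ N, m * z * m⁻¹ = a}.ncard * Nat.card ↥(N ⊓ centralizer {z}) = Nat.card N := by
  let _ := MulAction.compHom G ((MulAut.conj : G →* MulAut G).comp N.subtype)
  have e1 : MulAction.orbit N z = {a | ∃ m ∈ N, m * z * m⁻¹ = a} := by
    ext a
    exact ⟨fun ⟨m, e⟩ => ⟨m.1, m.2, e⟩, fun ⟨m, hm, e⟩ => ⟨⟨m, hm⟩, e⟩⟩
  have e2 : MulAction.stabilizer N z = (N ⊓ centralizer {z}).subgroupOf N := by
    ext m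
    rw [MulAction.mem_stabilizer_iff, mem_subgroupOf, mem_inf, and_iff_right m.2,
      mem_centralizer_singleton_iff, ← mul_inv_eq_iff_eq_mul]
    rfl
  rw [← e1, ← MulAction.index_stabilizer, ← index_mul_card (MulAction.stabilizer N z), e2,
    Nat.card_congr (subgroupOfEquivOfLe inf_le_left).toEquiv]

theorem ncard_le_length {α : Type*} {O : Set α} {l : List α} (h : ∀ x ∈ O, x ∈ l) :
    O.ncard ≤ l.length := by
  classical
  refine le_trans ?_ l.toFinset_card_le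
  rw [← Set.ncard_coe_finset]
  exact Set.ncard_le_ncard (fun x hx => by simpa using h x hx) (Finset.finite_toSet _)

theorem card_cent_equiv (e : H ≃* G) (x : H) :
    Nat.card (centralizer {e x}) = Nat.card (centralizer {x}) := by
  rw [← cent_zpowers x, ← card_map_equiv e, ← map_cent, MonoidHom.map_zpowers, cent_zpowers]
  rfl

theorem SH.dvd_cent [Finite G] {z : G} {Q X : Subgroup (centralizer ({z} : Set G))} [Q.Normal]
    (h : SH (Q.map (Subgroup.subtype _)) z) (hX : Nat.card X = 3) (hQX : Nat.card ↥⁅Q, X⁆ = 8)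
    (hna : ¬ IsMulCommutative ↥⁅Q, X⁆) : ∃ x : G, orderOf x = 3 ∧
      X.map (Subgroup.subtype _) = zpowers x ∧ 32 ∣ Nat.card (centralizer {x}) := by
  have : Fact (Nat.Prime 3) := ⟨Nat.prime_three⟩
  obtain ⟨u, hu, rfl⟩ := exists_zpowers_eq hX
  refine ⟨u, by rw [orderOf_coe, hu], MonoidHom.map_zpowers _ _, ?_⟩
  let z' : centralizer ({z} : Set G) := ⟨z, mem_centralizer_singleton_iff.2 rfl⟩
  have hz : z' ∈ ⁅Q, zpowers u⁆ := by
    by_contra hz
    refine hna ⟨⟨fun a b => Subtype.ext (Subtype.ext ((h.comm _ (mem_map_of_mem _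
      (commutator_le_left _ _ a.2)) _ (mem_map_of_mem _ (commutator_le_left _ _ b.2))).resolve_right
      fun e => hz ?_))⟩⟩
    convert ((b * a)⁻¹ * (a * b)).2 using 1
    exact Subtype.ext (eq_inv_mul_of_mul_eq e.symm)
  have h1 : {a | ∃ m ∈ Q, m * u * m⁻¹ = a}.ncard ≤
      (((⁅Q, zpowers u⁆ : Subgroup _) : Set (centralizer ({z} : Set G))) \ {z'}).ncard := by
    refine Set.ncard_le_ncard_of_injOn (fun a => a * u⁻¹) ?_ (fun a _ b _ e => mul_right_cancel e)
    rintro _ ⟨m, hm, rfl⟩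
    refine ⟨commutator_mem_commutator hm (mem_zpowers u), fun e => h.ne ?_⟩
    have e1 : m * u * m⁻¹ = z' * u := eq_mul_of_mul_inv_eq e
    have e2 : Commute z' u := Subtype.ext (mem_centralizer_singleton_iff.1 u.2).symm
    have e3 := congrArg (· ^ 3) e1
    simp only [conj_pow, e2.mul_pow, ← hu, pow_orderOf_eq_one, mul_one, mul_inv_cancel] at e3
    have e4 := congrArg Subtype.val e3
    rw [hu, coe_pow, pow_succ, pow_two, h.zz, one_mul] at e4
    exact e4.symm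
  rw [Set.ncard_sdiff_singleton_of_mem hz] at h1
  replace h1 := h1.trans_eq (congrArg (· - 1) hQX)
  have h2 := card_orbit Q u
  rw [← card_map_of_injective (K := Q) (subtype_injective _), h.cardQ] at h2
  refine Dvd.dvd.trans ?_ (card_dvd_of_le (show (Q ⊓ centralizer {u}).map (Subgroup.subtype _) ≤ _
    from ?_))
  · rw [card_map_of_injective (subtype_injective _)]
    generalize Set.ncard _ = n at h1 h2
    interval_cases n <;> omega
  · rintro _ ⟨y, hy, rfl⟩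
    exact mem_centralizer_singleton_iff.2
      (congrArg Subtype.val (mem_centralizer_singleton_iff.1 hy.2))

/-- The centraliser of `x` modulo `x` is `U₄(3)`. -/
def Y3 (x : G) : Prop := ∃ κ : centralizer {x} →* grp 280 U43P.p_O, Function.Surjective κ ∧
  ∀ c, κ c = 1 ↔ (c : G) ∈ zpowers x

theorem Y3.map {x : H} (h : Y3 x) (e : H ≃* G) : Y3 (e x) := by
  obtain ⟨κ, h1, h2⟩ := h
  have e1 : (centralizer {x}).map e.toMonoidHom = centralizer {e x} := by
    rw [← cent_zpowers x, ← map_cent, MonoidHom.map_zpowers, cent_zpowers]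
    rfl
  let i := (e.subgroupMap (centralizer {x})).trans (MulEquiv.subgroupCongr e1)
  refine ⟨κ.comp i.symm.toMonoidHom, h1.comp i.symm.surjective, fun c => (h2 _).trans ?_⟩
  rw [show zpowers (e x) = (zpowers x).map e.toMonoidHom from
    (MonoidHom.map_zpowers e.toMonoidHom x).symm, mem_map_equiv]
  rfl

theorem Sz.SG.y3' [Finite G] {g : ℕ → G} (h : Sz.SG g) : Y3 (g 14) := by
  obtain ⟨κ, h1, h2⟩ := h.quot
  refine ⟨κ, MonoidHom.range_eq_top.1 ?_, h1⟩
  rw [eq_top_iff, ← Sz.gen_mu]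
  exact gen_le.2 fun x a b => ⟨_, h2 x a b⟩

theorem Y3.dvd {x : G} (h : Y3 x) : 32 ∣ Nat.card (centralizer {x}) := by
  obtain ⟨κ, h1, -⟩ := h
  refine Dvd.dvd.trans ?_ (card_dvd_of_surjective κ h1)
  rw [U43P.p_card]; norm_num

theorem Y3.main [Finite G] {x a k d : G} (h : Y3 x) (hx : orderOf x = 3) (ha : a * x = x * a)
    (hk : k * x = x * k) (hak : a * k = x * (k * a)) (hd : d * x = x * (x * d)) {Y : Subgroup G}
    (hY : Y = zpowers x) [(Y.subgroupOf (centralizer (Y : Set G))).Normal] :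
    IsQuasisimple (centralizer (Y : Set G)) ∧
      Nonempty (centralizer (Y : Set G) ⧸ Y.subgroupOf (centralizer (Y : Set G)) ≃*
        grp 280 U43P.p_O) ∧ (centralizer (Y : Set G)).relIndex (normalizer (Y : Set G)) = 2 := by
  have : Fact (Nat.Prime 3) := ⟨Nat.prime_three⟩
  have hC : centralizer (Y : Set G) = centralizer {x} := hY ▸ cent_zpowers x
  obtain ⟨κ, h1, h2⟩ : ∃ κ : centralizer (Y : Set G) →* grp 280 U43P.p_O, Function.Surjective κ ∧
      ∀ c, κ c = 1 ↔ (c : G) ∈ zpowers x := hC ▸ h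
  have := U43P.simple
  have hnc : ¬ ∀ a b : grp 280 U43P.p_O, a * b = b * a := fun hc => by
    have : IsMulCommutative (grp 280 U43P.p_O) := ⟨⟨hc⟩⟩
    have := Group.is_simple_iff_prime_card.1 U43P.simple
    rw [U43P.p_card] at this
    norm_num at this
  have hker : Y.subgroupOf _ = κ.ker := Subgroup.ext fun c => by
    rw [mem_subgroupOf, MonoidHom.mem_ker, h2, ← hY]
  have hz : center (centralizer (Y : Set G)) = κ.ker := by
    refine le_antisymm ((Subgroup.map_eq_bot_iff _).1 ((IsSimpleGroup.eq_bot_or_eq_top_of_normal _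
      (Normal.map inferInstance κ h1)).resolve_right fun e => hnc fun a b => ?_))
      fun c hc => mem_center_iff.2 fun b => Subtype.ext (b.2 c (mem_subgroupOf.1 (hker ▸ hc))).symm
    obtain ⟨b, hb, rfl⟩ : b ∈ (center _).map κ := e ▸ mem_top b
    obtain ⟨a, rfl⟩ := h1 a
    rw [← map_mul, ← map_mul, mem_center_iff.1 hb]
  have m : ∀ {y}, y * x = x * y → y ∈ centralizer (Y : Set G) := fun e =>
    hC ▸ mem_centralizer_singleton_iff.2 e
  refine ⟨⟨⟨?_⟩, ((QuotientGroup.quotientMulEquivOfEq hz).trans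
    (QuotientGroup.quotientKerEquivOfSurjective κ h1)).isSimpleGroup⟩,
    ⟨(QuotientGroup.quotientMulEquivOfEq hker).trans
      (QuotientGroup.quotientKerEquivOfSurjective κ h1)⟩, ?_⟩
  · have e1 : κ.ker ≤ commutator _ := fun c hc => by
      obtain ⟨n, e⟩ := (h2 c).1 hc
      have : c = ⁅(⟨a, m ha⟩ : centralizer (Y : Set G)), ⟨k, m hk⟩⁆ ^ n := Subtype.ext (by
        rw [← e, coe_zpow, commutatorElement_def]
        simp only [coe_mul, coe_inv, hak]
        group)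
      exact this ▸ zpow_mem (commutator_mem_commutator (mem_top _) (mem_top _)) n
    rw [← comap_map_eq_self e1, map_commutator_eq, MonoidHom.range_eq_top.2 h1,
      (IsSimpleGroup.eq_bot_or_eq_top_of_normal ⁅⊤, ⊤⁆ inferInstance).resolve_left fun e =>
        hnc fun a b => commutatorElement_eq_one_iff_mul_comm.1
          (mem_bot.1 (e ▸ commutator_mem_commutator (mem_top a) (mem_top b))), comap_top]
  · have e1 := H58.relIndex_centralizer_dvd_card_mulAut Y
    rw [H58.card_mulAut_of_prime_card (p := 3) (by rw [hY, Nat.card_zpowers, hx])] at e1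
    refine ((Nat.dvd_prime Nat.prime_two).1 e1).resolve_left fun e => ?_
    have e2 : d ∈ normalizer (Y : Set G) := hY ▸ H49.mem_normalizer_of_conj_mem (by
      rintro _ ⟨n, rfl⟩
      rw [← conj_zpow, hd, ← mul_assoc, mul_inv_cancel_right]
      exact zpow_mem (mul_mem (mem_zpowers x) (mem_zpowers x)) n)
    have e3 := mem_centralizer_singleton_iff.1 (hC ▸ relIndex_eq_one.1 e e2)
    rw [e3, mul_right_inj, right_eq_mul] at hd
    simp [hd] at hx

end

namespace Sz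

theorem ord3 : orderOf (β 8) = 3 := by rw [← orderOf_coe, val 8]; exact SzT.st_c3_ord
theorem cent3 : Nat.card (centralizer {β 8}) = 9797760 := by
  rw [cent_val, val 8]; exact SzT.st_c3_card

theorem cls3 (u : Γ) (hu : orderOf u = 3) (h : 32 ∣ Nat.card (centralizer {u})) :
    IsConj (β 8) u := by
  obtain ⟨i, h1, h2, h3, h4⟩ := tab u
  have k : ∀ i < 43, 3 = nthN SzT.st_os i → 32 ∣ nthN SzT.st_cs i → i = 3 := by decide +kernel
  obtain rfl := k i h1 (hu ▸ h3) (h4 ▸ h)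
  exact h2 _ (val 8)

theorem exists_iso3 {G : Type*} [Group G] (f : Γ ≃* G) {x : G} (hx : orderOf x = 3)
    (h : 32 ∣ Nat.card (centralizer {x})) : ∃ e : Γ ≃* G, e (β 8) = x := by
  obtain ⟨c, e⟩ := isConj_iff.1 (cls3 (f.symm x) (by rw [f.symm.orderOf_eq, hx])
    (by rwa [card_cent_equiv]))
  exact ⟨(MulAut.conj c).trans f, f.eq_symm_apply.1 e⟩

theorem y3 {G : Type*} [Group G] [Finite G] (f : Γ ≃* G) {g : ℕ → G} (h : SG g) : Y3 (β 8) := by
  have : Fact (Nat.Prime 3) := ⟨Nat.prime_three⟩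
  obtain ⟨e, he⟩ := exists_iso3 f (orderOf_eq_prime h.y3 h.y1) h.y3'.dvd
  simpa using (he ▸ h.y3' : Y3 (e (β 8))).map e.symm

theorem eq3 : Eqs β [([17, 16, 16, 8], 8 :: [17, 16, 16]), ([25, 23, 24, 22, 8], 8 :: [25, 23, 24, 22]),
    ([17, 16, 16] ++ [25, 23, 24, 22], 8 :: ([25, 23, 24, 22] ++ [17, 16, 16]))] :=
  okX.eqs (by decide +kernel)

/-- The elementary abelian group of order `3 ^ 5`. -/
noncomputable abbrev A5 : Subgroup Γ := wgen β [[8], [16], [17], [18], [19]]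

theorem card_A5 : Nat.card A5 = 243 := by
  have e : wgen (gp 1782 SzO.EG SzO.code) [[8], [16], [17], [18], [19]] = grp 1782 SzO.ca_O :=
    le_antisymm (wgen_le_grp [8, 16, 17, 18, 19] rfl (by decide +kernel))
      (grp_le_wgen' [8, 16, 17, 18, 19] rfl (by decide +kernel))
  exact (okX.card_wgen _).trans (e ▸ le_antisymm SzO.ca_card SzO.ca_ge)

theorem comm_A5 : ∀ x ∈ A5, ∀ y ∈ A5, x * y = y * x := fun _ hx _ hy =>
  eqX.comm (by decide +kernel) hx hy

theorem mem_A5 (i : ℕ) (h : [[8], [16], [17], [18], [19]].contains [i] = true := by decide) :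
    β i ∈ A5 := ev_single β i ▸ mem_wgen β [i] (by simpa using h)

theorem cent_A5 : centralizer (A5 : Set Γ) = A5 :=
  le_antisymm (fun x hx => okX.cent (fun ξ => ξ.2) SzO.ca_sym SzO.ca_cnt SzO.ca_geE SzO.ca_le
    [8, 16, 17, 18, 19] [8, 16, 17, 18, 19] rfl (by decide +kernel) rfl (by decide +kernel)
      fun i hi => (hx _ (mem_A5 i (by revert i; decide))).symm)
    fun x hx y hy => comm_A5 y hy x hx

theorem pow_A5 : ∀ x ∈ A5, x ^ 3 = 1 := wgen_pow comm_A5 fun s hs => by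
  have := eqX.get (s ++ s ++ s) [] (by revert s; decide +kernel)
  rwa [ev_append, ev_append, ← pow_two, ← pow_succ] at this

/-- The elements of `A5`. -/
def W5 : List (List ℕ) := [[19, 18, 16, 16], [19, 19, 18, 8, 8], [19, 19, 18, 18, 16], [19, 17, 17, 16, 8], [19, 18], [19, 19, 18], [19, 18, 18, 16], [19, 19, 18, 16, 16, 8, 8], [18, 17, 17, 16, 16, 8, 8], [19, 19, 18, 17, 16], [19, 18, 18, 16, 16], [19, 19, 18, 16, 16], [19, 19, 18, 18, 16, 16], [18, 18, 17, 8], [8, 8], [19, 18, 17, 17, 16, 16, 8, 8], [19, 19, 18, 8], [19, 19, 18, 18, 17, 8], [19, 19, 18, 18, 17, 17, 16, 16, 8, 8], [17, 16, 8], [18, 18, 17, 17, 16, 16, 8, 8], [19, 19, 8, 8], [16, 16, 8, 8], [18, 18, 17, 16, 8], [18, 18, 17, 17, 16, 8], [18, 18, 17, 16], [18, 18, 17], [19, 19, 18, 17], [18], [19, 19, 16, 16, 8, 8], [18, 18, 17, 17], [19, 17, 17, 16, 16, 8], [19, 19, 18, 18, 17, 16, 8], [18, 16, 16], [18, 18, 17, 17, 16], [19, 19, 18, 16, 8], [19, 18, 18,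 17, 16, 8, 8], [16, 8, 8], [18, 18, 17, 17, 8], [19, 19, 18, 16], [17, 16, 16, 8], [18, 18, 17, 17, 16, 16], [18, 18, 17, 16, 8, 8], [18, 17, 17, 8, 8], [19, 18, 17, 17, 8, 8], [19, 18, 18], [19, 19, 18, 16, 8, 8], [18, 18, 17, 17, 16, 16, 8], [18, 17, 17, 16, 8, 8], [19, 18, 16], [19, 19, 18, 18, 17, 17, 16, 8, 8], [18, 18, 17, 16, 16, 8, 8], [19, 19, 18, 18, 17, 16, 16, 8], [18, 18, 17, 16, 16, 8], [19, 17, 17, 8], [19, 19, 18, 17, 16, 16], [18, 16], [19, 19, 18, 18, 17, 17, 8, 8], [19, 18, 18, 17, 8, 8], [17, 8], [18, 18, 17, 17, 8, 8], [18, 18, 17, 16, 16], [19, 19, 18, 16, 16, 8], [18, 18, 17, 17, 16, 8, 8], [19, 19, 18, 18], [19, 18, 18, 17, 16, 16, 8, 8], [18, 18, 17, 8, 8], [19, 19, 16, 8, 8], [19, 18, 17, 17, 16, 8, 8], [19, 18, 18, 17, 17, 16, 8], [19, 16, 16, 8, 8], [19, 8, 8], [18, 18, 16], [18, 17, 17, 16, 16], [17, 17, 16, 8], [19, 18, 16, 8], [18, 18, 16, 16], [19, 18, 17, 16], [19, 17, 17, 16, 8, 8], [19, 18,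 17, 17, 16, 16], [19, 18, 18, 17], [19, 19, 18, 18, 16, 16, 8], [16, 16], [19, 19, 18, 18, 16, 8], [19, 19, 18, 18, 17, 17, 16], [19, 18, 18, 16, 16, 8], [19, 18, 8], [19, 19, 16, 16], [17, 8, 8], [18, 17, 17, 16], [19, 17, 16, 8], [19, 19, 17, 17, 16, 8, 8], [19, 18, 17, 17], [19, 18, 18, 8], [19, 19, 18, 17, 17, 16, 16, 8, 8], [19, 19, 18, 18, 8], [19, 19, 18, 18, 17, 17], [19, 18, 17], [19, 18, 18, 17, 16], [19, 18, 17, 17, 16], [18, 8], [18, 16, 8], [19, 18, 18, 16, 8], [17, 17, 16, 16, 8], [18, 17, 17], [18, 18], [19, 19, 17, 17, 8, 8], [19, 19, 18, 17, 17, 8, 8], [19, 19, 18, 17, 16, 16, 8], [19, 19], [19, 19, 18, 18, 17, 17, 16, 16], [], [19, 18, 16, 16, 8], [19, 17, 17, 16, 16, 8, 8], [17, 17, 8], [19, 16, 8, 8], [18, 16, 16, 8], [17, 16, 16, 8, 8], [19, 19, 18, 18, 17, 8, 8], [19, 17, 16, 16, 8], [16], [19, 19, 18, 18, 17, 16, 8, 8], [19, 19, 18, 17, 16, 8], [19, 18, 17, 16, 16], [19, 19, 16], [19, 19, 17, 17, 16,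 16, 8, 8], [19, 19, 18, 17, 8], [19, 18, 18, 17, 17, 16, 16, 8], [19, 17, 17, 8, 8], [19, 17, 8], [19, 18, 18, 17, 17, 8], [19, 19, 18, 18, 17, 16, 16, 8, 8], [19, 18, 18, 17, 16, 16], [19, 19, 18, 17, 17, 16, 8, 8], [17, 16, 8, 8], [19, 17], [19, 16, 8], [19, 19, 17, 17, 16, 8], [19, 19, 17, 17, 16, 16, 8], [19, 19, 18, 18, 17, 17, 16, 8], [17, 17, 16], [18, 16, 16, 8, 8], [19, 19, 16, 16, 8], [19, 18, 18, 17, 17, 16], [19, 18, 16, 16, 8, 8], [19, 19, 18, 18, 17], [19, 19, 18, 18, 8, 8], [19, 18, 8, 8], [19, 18, 18, 17, 17], [18, 8, 8], [18, 18, 16, 16, 8, 8], [19, 16, 16, 8], [18, 17, 17, 16, 16, 8], [16, 8], [19, 19, 16, 8], [19, 18, 17, 17, 16, 8], [17, 17], [19, 18, 18, 17, 16, 8], [19, 18, 18, 17, 8], [19, 18, 18, 16, 16, 8, 8], [19, 19, 18, 18, 16, 16, 8, 8], [19, 18, 17, 16, 16, 8, 8], [19, 17, 17, 16, 16], [18, 18, 8, 8], [17], [18, 17, 17, 16, 8], [16, 16, 8], [19, 18, 17, 8, 8], [19, 19, 18, 18, 17, 16], [17, 17,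 16, 16], [19, 19, 18, 17, 17, 16, 16, 8], [19, 17, 17, 16], [19, 19, 18, 17, 17, 16, 8], [19, 18, 17, 17, 16, 16, 8], [19, 17, 16], [19, 18, 18, 8, 8], [19, 19, 18, 17, 16, 16, 8, 8], [19, 19, 18, 17, 8, 8], [19, 17, 17], [17, 16], [19, 18, 17, 17, 8], [19, 18, 18, 16, 8, 8], [8], [19, 8], [19, 18, 18, 17, 17, 16, 16], [19, 19, 18, 18, 16, 8, 8], [19, 18, 17, 16, 8, 8], [18, 16, 8, 8], [19, 19, 17, 17, 8], [19, 19, 8], [17, 16, 16], [19, 19, 18, 18, 17, 17, 8], [19, 18, 16, 8, 8], [19, 19, 18, 17, 17, 8], [19, 19, 18, 17, 16, 8, 8], [18, 18, 16, 8, 8], [19, 19, 18, 18, 17, 17, 16, 16, 8], [19, 17, 16, 16], [18, 17, 17, 8], [19, 18, 18, 17, 16, 16, 8], [19, 19, 18, 18, 17, 16, 16], [19, 19, 17], [19, 19, 18, 17, 17, 16], [18, 18, 8], [18, 18, 16, 16, 8], [18, 18, 16, 8], [19, 19, 18, 17, 17], [19, 19, 17, 17], [19, 19, 17, 17, 16], [19, 19, 18, 17, 17, 16, 16], [18, 17, 8, 8], [18, 17], [19, 18, 18, 17, 17, 16, 16, 8, 8], [18,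 17, 16], [19, 19, 17, 17, 16, 16], [19, 19, 17, 8, 8], [19, 16, 16], [19, 17, 8, 8], [19, 19, 17, 16], [17, 17, 16, 8, 8], [18, 17, 16, 16, 8, 8], [19, 19, 17, 16, 8], [19, 16], [18, 17, 16, 8, 8], [18, 17, 16, 16, 8], [19, 18, 18, 17, 17, 16, 8, 8], [19, 19, 17, 16, 16, 8], [17, 17, 8, 8], [19, 17, 16, 16, 8, 8], [19, 18, 17, 8], [19, 18, 17, 16, 16, 8], [19, 18, 18, 17, 17, 8, 8], [19], [19, 17, 16, 8, 8], [18, 17, 8], [19, 19, 17, 8], [19, 19, 17, 16, 8, 8], [18, 17, 16, 8], [18, 17, 16, 16], [17, 17, 16, 16, 8, 8], [19, 18, 17, 16, 8], [19, 19, 17, 16, 16, 8, 8], [19, 19, 17, 16, 16]]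

/-- The elements of `A5` of class `3A`. -/
def T5 : List (List ℕ) := [[8, 8], [18, 18, 17, 17, 16, 16, 8, 8], [18], [19, 19, 18, 18, 17, 16, 16, 8], [19, 18, 17, 17, 16, 8, 8], [16, 16], [19, 18, 18, 17, 16], [18, 18], [19, 19], [19, 18, 16, 16, 8], [16], [19, 18, 18, 17, 17, 8], [19, 19, 17, 17, 16, 8], [17, 17], [17], [19, 19, 18, 17, 8, 8], [8], [19, 19, 18, 18, 16, 8, 8], [19, 19, 18, 17, 17, 16, 16], [19, 17, 16, 16, 8, 8], [19], [18, 17, 16, 8]]

theorem orbit_A5 {K : Subgroup Γ} (hK : K ≤ normalizer (A5 : Set Γ)) (j : ℕ) (hj : β j ∈ A5)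
    (E : List (List ℕ)) (hE : ∀ e ∈ E, K ≤ centralizer {ev β e})
    (h : (DX.fixW 11 [j] == 162 && E.all fun e => DX.neW [j] e) = true) :
    ∀ x ∈ {a | ∃ m ∈ K, m * β j * m⁻¹ = a}, x ∈ (T5.filter fun w => !E.contains w).map (ev β) := by
  rintro _ ⟨m, hm, rfl⟩
  rw [Bool.and_eq_true, beq_iff_eq, List.all_eq_true] at h
  obtain ⟨w, hw, e⟩ := okX.cover (W := W5) (by decide +kernel) (by decide +kernel)
    (card_A5.le.trans (by decide +kernel)) _ (H49.conj_mem_of_mem_normalizer (hK hm) hj)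
  have k : ∀ w ∈ W5, DX.fixW 11 w = 162 → w ∈ T5 := by decide +kernel
  refine List.mem_map.2 ⟨w, List.mem_filter.2 ⟨k w hw (Eq.trans (okX.fixW_eq (by decide)
    (Γ.subtype.map_isConj (isConj_iff.2 ⟨m, (ev_single β j).symm ▸ e⟩))).symm h.1), ?_⟩, e.symm⟩
  rw [Bool.not_eq_true', ← Bool.not_eq_true, List.contains_iff_mem]
  refine fun hw => okX.ne (h.2 w hw) ?_
  rw [mul_inv_eq_iff_eq_mul, ← mem_centralizer_singleton_iff.1 (hE w hw hm), mul_right_inj] at e
  rw [ev_single, e]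

theorem card_NA : Nat.card (normalizer (A5 : Set Γ)) ≤ 7920 * 243 := by
  set N := normalizer (A5 : Set Γ)
  have c2 : ∀ j, centralizer {β j} ≤ centralizer {ev β [j, j]} := fun j x hx => by
    rw [mem_centralizer_singleton_iff] at hx ⊢
    rw [ev_cons, ev_single, ← mul_assoc, hx, mul_assoc, hx, mul_assoc]
  have a1 := card_orbit N (β 8)
  have b1 := ncard_le_length (orbit_A5 le_rfl 8 (mem_A5 8) [] (by simp) (by decide +kernel))
  have a2 := card_orbit (N ⊓ centralizer {β 8}) (β 16)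
  have b2 := ncard_le_length (orbit_A5 (K := N ⊓ centralizer {β 8}) inf_le_left 16 (mem_A5 16)
    [[8], [8, 8]] (by
      simp only [List.forall_mem_cons, ev_single]
      exact ⟨inf_le_right, inf_le_right.trans (c2 8), by simp⟩) (by decide +kernel))
  set K := N ⊓ centralizer {β 8} ⊓ centralizer {β 16}
  have a3 := card_orbit K (β 17)
  have hE : ∀ e ∈ [[8], [8, 8], [16], [16, 16]], K ≤ centralizer {ev β e} := by
    simp only [List.forall_mem_cons, ev_single]
    exact ⟨inf_le_left.trans inf_le_right, inf_le_left.trans (inf_le_right.trans (c2 8)),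
      inf_le_right, inf_le_right.trans (c2 16), by simp⟩
  have e20 : β 20 = (β 17)⁻¹ := eq_inv_of_mul_eq_one_right (eqX.one 17 20)
  have b3 := ncard_le_length (O := {a | ∃ m ∈ K, m * β 17 * m⁻¹ = a} ∪
      {a | ∃ m ∈ K, m * β 20 * m⁻¹ = a}) fun x hx => hx.elim
    (orbit_A5 (inf_le_left.trans inf_le_left) 17 (mem_A5 17) _ hE (by decide +kernel) x)
    (orbit_A5 (inf_le_left.trans inf_le_left) 20 (e20 ▸ inv_mem (mem_A5 17)) _ hE
      (by decide +kernel) x)
  have a4 := card_orbit K (β 20)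
  have e1 : centralizer {β 20} = centralizer {β 17} := by
    ext x
    rw [e20, mem_centralizer_singleton_iff, mem_centralizer_singleton_iff]
    exact Commute.inv_right_iff
  rw [e1] at a4
  rw [Set.ncard_union_eq (Set.disjoint_left.2 (by
    rintro _ ⟨m, hm, rfl⟩ ⟨m', hm', e⟩
    have h1 := mul_mem (inv_mem hm') hm
    refine SzO.nc_cnt.not_sol (m'⁻¹ * m : Γ) ⟨(m'⁻¹ * m).2, fun a => ?_, MovA.zero _ _⟩
    have e2 : m'⁻¹ * m * β 17 = β 20 * (m'⁻¹ * m) := by
      rw [mul_assoc, mul_inv_eq_iff_eq_mul.1 e.symm]; group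
    rcases a with _ | _ | _ | a
    · exact val 8 ▸ congrArg Subtype.val (mem_centralizer_singleton_iff.1 h1.1.2)
    · exact val 16 ▸ congrArg Subtype.val (mem_centralizer_singleton_iff.1 h1.2)
    · exact val 17 ▸ val 20 ▸ congrArg Subtype.val e2
    · change _ * Net.nil.toPerm 1782 = Net.nil.toPerm 1782 * _
      rw [Net.toPerm_nil, mul_one, one_mul]))] at b3
  have a5 : Nat.card ↥(K ⊓ centralizer {β 17}) ≤ 486 := by
    refine (card_le_of_le (K := wgen β [[8], [16], [17], [18], [19], [38]]) fun x hx =>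
      okX.cent (fun ξ => ξ.2) SzO.c3_sym SzO.c3_cnt SzO.c3_geE SzO.c3_le [8, 16, 17]
        [8, 16, 17, 18, 19, 38] rfl (by decide +kernel) rfl (by decide +kernel) ?_).trans ?_
    · simp only [List.forall_mem_cons, ← mem_centralizer_singleton_iff]
      exact ⟨hx.1.1.2, hx.1.2, hx.2, by simp⟩
    · rw [okX.card_wgen]
      exact (card_le_of_le (wgen_le_grp [8, 16, 17, 18, 19, 38] rfl (by decide +kernel))).trans
        SzO.c3_card
  have a6 := Nat.eq_of_mul_eq_mul_right Nat.card_pos (a3.trans a4.symm)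
  replace b1 := b1.trans (show _ ≤ 22 by decide +kernel)
  replace b2 := b2.trans (show _ ≤ 20 by decide +kernel)
  replace b3 := b3.trans (show _ ≤ 18 by decide +kernel)
  rw [← a1, ← a2, ← a3]
  exact (Nat.mul_le_mul b1 (Nat.mul_le_mul b2 (Nat.mul_le_mul (show _ ≤ 9 by omega) a5))).trans
    (by norm_num)

/-- Generators of `M₁₁` in the Suzuki group. -/
noncomputable def σ3 : ℕ → List ℕ := nth [] [[], [21], [22], [23], [24], [25]]

theorem iso_NA : Spor.IsoM11 (normalizer (A5 : Set Γ) ⧸ A5.subgroupOf (normalizer (A5 : Set Γ))) := by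
  have hN := card_NA
  set N := normalizer (A5 : Set Γ)
  have n2 : β 22 ∈ N := eqX.norm [[8, 8], [17, 17], [19, 19, 18, 18, 16, 8, 8], [18], [19, 19]] 22 (by decide +kernel)
  have n4 : β 24 ∈ N := eqX.norm [[19, 19], [19, 18, 17, 17, 16, 8, 8], [19, 19, 18, 17, 17, 16, 16], [18, 18], [17, 17]] 24 (by decide +kernel)
  have m : ∀ x, ev β (σ3 x) ∈ N := fun x => ev_mem fun i hi => (by
    simp only [List.forall_mem_cons]
    exact ⟨eqX.norm [[19, 18, 18, 17, 16], [19], [18, 18, 17, 17, 16, 16, 8, 8], [19, 18, 18, 17, 17, 8], [16]] 21 (by decide +kernel), n2,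
      eq_inv_of_mul_eq_one_right (eqX.one 22 23) ▸ inv_mem n2, n4,
      eq_inv_of_mul_eq_one_right (eqX.one 24 25) ▸ inv_mem n4, by simp⟩ :
        ∀ i ∈ [21, 22, 23, 24, 25], β i ∈ N) i (by
    rcases x with _ | _ | _ | _ | _ | _ | x <;> simp_all [σ3, nth])
  let π := QuotientGroup.mk' (A5.subgroupOf N)
  let g : ℕ → N := fun x => ⟨_, m x⟩
  have hg : Sat g M11s.Rm := fun r hr => Subtype.ext
    ((map_ev N.subtype g r).trans (satX σ3 _ (by decide +kernel) r hr))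
  have h := M11sM.simple_card (hg.map π) fun e => okX.ne (l := [21] ++ [8]) (r := [8] ++ [21])
    (by decide +kernel) (by
      rw [ev_append, ev_append, ev_single β 8]
      exact comm_A5 _ (mem_subgroupOf.1 ((QuotientGroup.eq_one_iff _).1 e)) _ (mem_A5 8))
  have h1 := card_eq_card_quotient_mul_card_subgroup (A5.subgroupOf N)
  rw [Nat.card_congr (subgroupOfEquivOfLe le_normalizer).toEquiv, card_A5] at h1
  have ht : gen (fun x => π (g x)) 5 = ⊤ := eq_top_of_le_card _ (by rw [h.2]; omega)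
  let e := (MulEquiv.subgroupCongr ht).trans topEquiv
  have := h.1
  exact H13.isoM11_of_isM11 ⟨e.symm.isSimpleGroup, (Nat.card_congr e.toEquiv).symm.trans h.2⟩

end Sz

end Cfsg.Agent.H59
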